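import Mathlib
import Cfsg.Prelude.Def_LieTypeDatum
import Cfsg.Agent.Lib.Helper14.AutON
import Cfsg.Agent.Lib.Helper14.MaxTS2
import Cfsg.Agent.Lib.Helper14.MaxTS6
import Cfsg.Agent.Lib.Helper44.SimClass
import Cfsg.Agent.Lib.Helper44.PgoAut

/-!
# Semisimilarities and the two classes of maximal totally singular subspaces

The semisimilarities of a quadratic form of maximal Witt index permute the maximal totally
singular subspaces; the parity of the codimension of `E ∩ x(E)` is a homomorphism to `{±1}`.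
Its kernel, intersected with the linear pairs, induces the inner-diagonal automorphisms.
-/

set_option autoImplicit false

namespace Cfsg.Agent.Lib.Helper8.PlusSemi

open Matrix Module Cfsg.Agent.Lib.Helper14 Cfsg.Agent.Lib.Helper44

section gen

variable {ι : Type} [Fintype ι] [DecidableEq ι] {F : Type*} [Field F]

theorem sact_zero (x : SemiGL ι F) : sact x (0 : ι → F) = 0 := by
  have h := sact_smul x 0 (0 : ι → F)
  rwa [zero_smul, map_zero, zero_smul] at h

/-- The image of a subspace under the semilinear map of a pair. -/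
def simg (x : SemiGL ι F) (W : Submodule F (ι → F)) : Submodule F (ι → F) where
  carrier := sact x '' W
  add_mem' := by
    rintro _ _ ⟨a, ha, rfl⟩ ⟨b, hb, rfl⟩
    exact ⟨a + b, W.add_mem ha hb, sact_add x a b⟩
  zero_mem' := ⟨0, W.zero_mem, sact_zero x⟩
  smul_mem' := by
    rintro c _ ⟨a, ha, rfl⟩
    refine ⟨(x.right⁻¹ : RingAut F) c • a, W.smul_mem _ ha, ?_⟩
    rw [sact_smul]
    congr 1
    exact RingEquiv.apply_symm_apply x.right c

theorem mem_simg {x : SemiGL ι F} {W : Submodule F (ι → F)} {v : ι → F} :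
    v ∈ simg x W ↔ ∃ w ∈ W, sact x w = v := Iff.rfl

theorem sact_mem_simg (x : SemiGL ι F) {W : Submodule F (ι → F)} {w : ι → F} (hw : w ∈ W) :
    sact x w ∈ simg x W := ⟨w, hw, rfl⟩

theorem simg_mul (x y : SemiGL ι F) (W : Submodule F (ι → F)) :
    simg (x * y) W = simg x (simg y W) := by
  ext v
  constructor
  · rintro ⟨w, hw, rfl⟩
    exact ⟨sact y w, ⟨w, hw, rfl⟩, (sact_mul x y w).symm⟩
  · rintro ⟨_, ⟨w, hw, rfl⟩, rfl⟩
    exact ⟨w, hw, sact_mul x y w⟩

theorem simg_one (W : Submodule F (ι → F)) : simg (1 : SemiGL ι F) W = W := by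
  ext v
  constructor
  · rintro ⟨w, hw, rfl⟩
    rw [sact_one]
    exact hw
  · intro hv
    exact ⟨v, hv, sact_one v⟩

theorem simg_inf (x : SemiGL ι F) (W W' : Submodule F (ι → F)) :
    simg x (W ⊓ W') = simg x W ⊓ simg x W' := by
  ext v
  constructor
  · rintro ⟨w, ⟨hw, hw'⟩, rfl⟩
    exact ⟨⟨w, hw, rfl⟩, ⟨w, hw', rfl⟩⟩
  · rintro ⟨⟨w, hw, h1⟩, ⟨w', hw', h2⟩⟩
    have e : w = w' := sact_injective x (h1.trans h2.symm)
    subst e
    exact ⟨w, ⟨hw, hw'⟩, h1⟩

theorem simg_mono (x : SemiGL ι F) {W W' : Submodule F (ι → F)} (h : W ≤ W') :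
    simg x W ≤ simg x W' := by
  rintro _ ⟨w, hw, rfl⟩
  exact ⟨w, h hw, rfl⟩

theorem finrank_simg (x : SemiGL ι F) (W : Submodule F (ι → F)) :
    finrank F ↥(simg x W) = finrank F ↥W := by
  let j0 : ↥W →+ ↥(simg x W) :=
    { toFun := fun w => ⟨sact x (w : ι → F), ⟨w, w.2, rfl⟩⟩
      map_zero' := Subtype.ext (sact_zero x)
      map_add' := fun a b => Subtype.ext (sact_add x a b) }
  have hbij : Function.Bijective j0 := by
    constructor
    · intro a b h
      have h' : sact x (a : ι → F) = sact x (b : ι → F) := congrArg Subtype.val h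
      exact Subtype.ext (sact_injective x h')
    · rintro ⟨_, w, hw, rfl⟩
      exact ⟨⟨w, hw⟩, rfl⟩
  have h := rank_eq_of_equiv_equiv (R := F) (R' := F) (M := ↥W) (M₁ := ↥(simg x W))
    (fun c => x.right c) (AddEquiv.ofBijective j0 hbij) (RingEquiv.bijective x.right)
    (fun r m => Subtype.ext (sact_smul x r (m : ι → F)))
  unfold Module.finrank
  rw [h]

theorem simg_of_right_eq_one (x : SemiGL ι F) (hx : x.right = 1) (W : Submodule F (ι → F)) :
    simg x W = W.map (Matrix.mulVecLin (x.left : Matrix ι ι F)) := by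
  have e : ∀ w : ι → F, sact x w = (x.left : Matrix ι ι F) *ᵥ w := by
    intro w
    unfold sact
    rw [hx]
    rfl
  ext v
  constructor
  · rintro ⟨w, hw, rfl⟩
    exact ⟨w, hw, (e w).symm⟩
  · rintro ⟨w, hw, rfl⟩
    exact ⟨w, hw, e w⟩

theorem simg_eq_of_stab (x : SemiGL ι F) (W : Submodule F (ι → F))
    (h : ∀ w ∈ W, sact x w ∈ W) : simg x W = W := by
  apply Submodule.eq_of_le_of_finrank_eq
  · rintro _ ⟨w, hw, rfl⟩
    exact h w hw
  · exact finrank_simg x W

end gen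

section cls

variable {ι : Type} [Fintype ι] [DecidableEq ι] {F : Type*} [Field F]
variable (Q : QuadraticForm F (ι → F)) (hQ : (QuadraticMap.polarBilin Q).Nondegenerate)
variable (m : ℕ) (hdim : finrank F (ι → F) = 2 * m)
variable (E : Submodule F (ι → F)) (hE : IsMTS Q m E)

theorem IsMTS.simg {W : Submodule F (ι → F)} (hW : IsMTS Q m W) {x : SemiGL ι F}
    (hx : x ∈ semiSim ⇑Q) : IsMTS Q m (simg x W) := by
  constructor
  · rw [finrank_simg]
    exact hW.1
  · rintro _ ⟨w, hw, rfl⟩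
    obtain ⟨c, hc⟩ := (mem_semiSim_iff ⇑Q x).mp hx
    rw [hc, hW.2 w hw, map_zero, mul_zero]

include hQ hdim hE

/-- The class character of the semisimilarities. -/
noncomputable def clsHom : ↥(semiSim ⇑Q) →* ℤˣ where
  toFun x := (-1) ^ (m - finrank F ↥(E ⊓ simg (x : SemiGL ι F) E))
  map_one' := by
    rw [Subgroup.coe_one, simg_one, inf_idem, hE.1, Nat.sub_self, pow_zero]
  map_mul' := by
    intro x y
    have h1 := IsMTS.parity' hQ hdim hE (IsMTS.simg Q m hE x.2)
      (IsMTS.simg Q m hE (x * y).2)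
    have e : simg (x : SemiGL ι F) E ⊓ simg ((x * y : ↥(semiSim ⇑Q)) : SemiGL ι F) E =
        simg (x : SemiGL ι F) (E ⊓ simg (y : SemiGL ι F) E) := by
      rw [Subgroup.coe_mul, simg_mul, simg_inf]
    rw [e, finrank_simg] at h1
    exact neg_one_pow_of_even_add h1

theorem clsHom_apply (x : ↥(semiSim ⇑Q)) :
    clsHom Q hQ m hdim E hE x = (-1) ^ (m - finrank F ↥(E ⊓ simg (x : SemiGL ι F) E)) := rfl

/-- The class character computed on any maximal totally singular subspace. -/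
theorem cls_eq (x : ↥(semiSim ⇑Q)) {W : Submodule F (ι → F)} (hW : IsMTS Q m W) :
    (-1 : ℤˣ) ^ (m - finrank F ↥(W ⊓ simg (x : SemiGL ι F) W)) = clsHom Q hQ m hdim E hE x := by
  have h1 := IsMTS.parity' hQ hdim hW hE (IsMTS.simg Q m hW x.2)
  have h2 := IsMTS.parity' hQ hdim hE (IsMTS.simg Q m hE x.2) (IsMTS.simg Q m hW x.2)
  have e : simg (x : SemiGL ι F) E ⊓ simg (x : SemiGL ι F) W =
      simg (x : SemiGL ι F) (E ⊓ W) := (simg_inf _ _ _).symm
  rw [e, finrank_simg, inf_comm E W] at h2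
  have k1 := neg_one_pow_of_even_add h1
  have k2 := neg_one_pow_of_even_add h2
  rw [clsHom_apply, k1, k2, mul_comm ((-1 : ℤˣ) ^ (m - finrank F ↥(E ⊓ simg (x : SemiGL ι F) E))),
    ← mul_assoc, ← pow_add, ← two_mul, pow_mul]
  simp

theorem cls_eq_one_iff (x : ↥(semiSim ⇑Q)) {W : Submodule F (ι → F)} (hW : IsMTS Q m W) :
    clsHom Q hQ m hdim E hE x = 1 ↔ Even (m - finrank F ↥(W ⊓ simg (x : SemiGL ι F) W)) := by
  rw [← cls_eq Q hQ m hdim E hE x hW]
  exact neg_one_pow_eq_one_iff_even (by decide)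

theorem cls_of_stab (x : ↥(semiSim ⇑Q)) (h : ∀ w ∈ E, sact (x : SemiGL ι F) w ∈ E) :
    clsHom Q hQ m hdim E hE x = 1 := by
  rw [clsHom_apply, simg_eq_of_stab _ E h, inf_idem, hE.1, Nat.sub_self, pow_zero]

theorem cls_refl (x : ↥(semiSim ⇑Q)) (hx : (x : SemiGL ι F).right = 1) (v : ι → F)
    (hv : Q v ≠ 0)
    (hl : ((x : SemiGL ι F).left : Matrix ι ι F) = Cfsg.reflectionMatrix ⇑Q v) :
    clsHom Q hQ m hdim E hE x = -1 := by
  rw [clsHom_apply, simg_of_right_eq_one _ hx, hl]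
  have h := hE.finrank_inf_map_refl hQ hdim hv
  have e : m - finrank F ↥(E ⊓ E.map (Matrix.mulVecLin (Cfsg.reflectionMatrix ⇑Q v))) = 1 := by
    omega
  rw [e, pow_one]

theorem preserves_iff (x : ↥(semiSim ⇑Q)) (hx : (x : SemiGL ι F).right = 1) :
    Cfsg.PreservesSingularClasses ⇑Q ((x : SemiGL ι F).left : Matrix ι ι F) ↔
      clsHom Q hQ m hdim E hE x = 1 := by
  unfold Cfsg.PreservesSingularClasses Cfsg.SameParityClass Cfsg.imageSubmodule
  constructor
  · intro h
    have h1 := h E ((isMaxTS_iff_isMTS_gen Q hQ m hdim E hE E).mpr hE)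
    rw [Matrix.toLin'_apply', ← simg_of_right_eq_one _ hx, hE.1] at h1
    rw [clsHom_apply]
    exact Even.neg_one_pow h1
  · intro h U hU
    have hU' := (isMaxTS_iff_isMTS_gen Q hQ m hdim E hE U).mp hU
    rw [Matrix.toLin'_apply', ← simg_of_right_eq_one _ hx, hU'.1]
    exact (cls_eq_one_iff Q hQ m hdim E hE x hU').mp h

/-- The inner-diagonal pairs: linear and class-preserving. -/
noncomputable def idSub : Subgroup ↥(semiSim ⇑Q) :=
  (clsHom Q hQ m hdim E hE).ker ⊓ (semiRight ⇑Q).ker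

theorem mem_idSub (x : ↥(semiSim ⇑Q)) :
    x ∈ idSub Q hQ m hdim E hE ↔
      clsHom Q hQ m hdim E hE x = 1 ∧ (x : SemiGL ι F).right = 1 := Iff.rfl

theorem idSub_normal : (idSub Q hQ m hdim E hE).Normal := by
  unfold idSub
  infer_instance

/-- The inner-diagonal automorphisms are those induced by the inner-diagonal pairs. -/
theorem closure_eq_map :
    Subgroup.closure {β : MulAut (Cfsg.POmega F ⇑Q) | ∃ g : GL ι F,
        g ∈ Cfsg.Geo.quadSimilarityGroup (F := F) ⇑Q ∧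
        Cfsg.PreservesSingularClasses ⇑Q (g : Matrix ι ι F) ∧
        Cfsg.IsInducedBySemilinearPOmega ⇑Q g (RingEquiv.refl F) β} =
      (idSub Q hQ m hdim E hE).map (semiAut ⇑Q) := by
  apply le_antisymm
  · rw [Subgroup.closure_le]
    rintro β ⟨g, hg, hP, hind⟩
    refine ⟨simToSemi ⇑Q ⟨g, hg⟩, ⟨?_, rfl⟩, ?_⟩
    · exact (preserves_iff Q hQ m hdim E hE (simToSemi ⇑Q ⟨g, hg⟩) rfl).mp hP
    · exact ((induced_iff_semiAut ⇑Q (simToSemi ⇑Q ⟨g, hg⟩) β).mp hind).symm
  · rintro β ⟨x, ⟨hx1, hx2⟩, rfl⟩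
    apply Subgroup.subset_closure
    have hx2' : (x : SemiGL ι F).right = 1 := hx2
    obtain ⟨g, rfl⟩ := exists_sim_of_right_eq_one ⇑Q x hx2'
    refine ⟨(g : GL ι F), g.2, ?_, ?_⟩
    · exact (preserves_iff Q hQ m hdim E hE (simToSemi ⇑Q g) rfl).mpr hx1
    · exact (induced_iff_semiAut ⇑Q (simToSemi ⇑Q g) _).mpr rfl

end cls

end Cfsg.Agent.Lib.Helper8.PlusSemi
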