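import Mathlib
import Cfsg.Agent.Lib.Helper8.PlusSemi
import Cfsg.Agent.Lib.Helper14.MaxTS3
import Cfsg.Agent.Lib.Helper14.AutOK
import Cfsg.Agent.Lib.Helper43.FieldAut.Galois
import Cfsg.Agent.Lib.Helper43.FieldAut.H90
import Cfsg.Agent.Lib.Helper99.Quad
import Cfsg.Agent.Lib.Helper99.Quad3

/-!
# Galois descent of a quadratic form along a field automorphism

A quadratic form over a finite field whose values on the vectors with coordinates in the fixed
field of an automorphism `σ` are fixed by `σ` comes from a quadratic form over the fixed field.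
Combined with Hilbert 90 and the Witt decomposition over the fixed field this gives the
Lang-Steinberg statement for the class-preserving semisimilarities of the hyperbolic form.
-/

set_option autoImplicit false

namespace Cfsg.Agent.Lib.Helper8.PlusDesc

open Matrix Module Cfsg.Agent.Lib.Helper14 Cfsg.Agent.Lib.Helper43.FieldAut
  Cfsg.Agent.Lib.Helper8.PlusSemi

section ext

variable {K V : Type*} [Field K] [AddCommGroup V] [Module K V] {κ : Type*}

/-- A quadratic form is determined by its values and its polar form on a basis. -/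
theorem quad_ext (b : Basis κ K V) (P P' : QuadraticForm K V) (h1 : ∀ i, P (b i) = P' (b i))
    (h2 : ∀ i j, QuadraticMap.polar ⇑P (b i) (b j) = QuadraticMap.polar ⇑P' (b i) (b j)) :
    P = P' := by
  classical
  letI : LinearOrder κ := IsWellOrder.linearOrder WellOrderingRel
  rw [← QuadraticMap.toQuadraticMap_toBilin P b, ← QuadraticMap.toQuadraticMap_toBilin P' b]
  congr 1
  apply b.ext
  intro i
  apply b.ext
  intro j
  rw [QuadraticMap.toBilin_apply, QuadraticMap.toBilin_apply, h1, h2]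

end ext

section descent

variable {ι : Type} [Fintype ι] [DecidableEq ι] {F : Type*} [Field F] [Finite F] (σ : RingAut F)

/-- A vector over the fixed field, read over the big field. -/
def emb (v : ι → ↥(fixF σ)) : ι → F := fun i => (v i : F)

theorem emb_add (v w : ι → ↥(fixF σ)) : emb σ (v + w) = emb σ v + emb σ w := rfl

theorem emb_smul (a : ↥(fixF σ)) (v : ι → ↥(fixF σ)) : emb σ (a • v) = (a : F) • emb σ v := rfl

theorem emb_zero : emb σ (0 : ι → ↥(fixF σ)) = 0 := rfl

theorem emb_injective : Function.Injective (emb (ι := ι) σ) := by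
  intro v w h
  funext i
  exact Subtype.ext (congrFun h i)

theorem emb_single (i : ι) : emb σ (Pi.single i (1 : ↥(fixF σ))) = Pi.single i (1 : F) := by
  funext l
  unfold emb
  by_cases h : l = i
  · subst h
    simp
  · simp [Pi.single_eq_of_ne h]

theorem map_emb (v : ι → ↥(fixF σ)) : (fun i => σ (emb σ v i)) = emb σ v := by
  funext i
  exact (mem_fixF σ).mp (v i).2

/-- Two quadratic forms agreeing on the vectors over the fixed field are equal. -/
theorem quad_ext_emb (P P' : QuadraticForm F (ι → F))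
    (h : ∀ v : ι → ↥(fixF σ), P (emb σ v) = P' (emb σ v)) : P = P' := by
  apply quad_ext (Pi.basisFun F ι)
  · intro i
    rw [Pi.basisFun_apply, ← emb_single σ i]
    exact h _
  · intro i j
    rw [Pi.basisFun_apply, Pi.basisFun_apply]
    unfold QuadraticMap.polar
    rw [← emb_single σ i, ← emb_single σ j, ← emb_add, h, h, h]

/-- The descent of a quadratic form to the fixed field. -/
noncomputable def descend (P : QuadraticForm F (ι → F))
    (hP : ∀ v : ι → ↥(fixF σ), σ (P (emb σ v)) = P (emb σ v)) :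
    QuadraticForm ↥(fixF σ) (ι → ↥(fixF σ)) :=
  QuadraticMap.ofPolar (fun v => ⟨P (emb σ v), (mem_fixF σ).mpr (hP v)⟩)
    (by
      intro a x
      apply Subtype.ext
      show P (emb σ (a • x)) = ((a * a : ↥(fixF σ)) : F) * P (emb σ x)
      rw [emb_smul, QuadraticMap.map_smul]
      rfl)
    (by
      intro x x' y
      apply Subtype.ext
      show P (emb σ (x + x' + y)) - P (emb σ (x + x')) - P (emb σ y) =
        (P (emb σ (x + y)) - P (emb σ x) - P (emb σ y)) +
          (P (emb σ (x' + y)) - P (emb σ x') - P (emb σ y))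
      have h := QuadraticMap.polar_add_left P (emb σ x) (emb σ x') (emb σ y)
      unfold QuadraticMap.polar at h
      simp only [emb_add]
      exact h)
    (by
      intro a x y
      apply Subtype.ext
      show P (emb σ (a • x + y)) - P (emb σ (a • x)) - P (emb σ y) =
        (a : F) * (P (emb σ (x + y)) - P (emb σ x) - P (emb σ y))
      have h := QuadraticMap.polar_smul_left P (a : F) (emb σ x) (emb σ y)
      unfold QuadraticMap.polar at h
      simp only [emb_add, emb_smul]
      rw [h]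
      rfl)

theorem descend_coe (P : QuadraticForm F (ι → F))
    (hP : ∀ v : ι → ↥(fixF σ), σ (P (emb σ v)) = P (emb σ v)) (v : ι → ↥(fixF σ)) :
    ((descend σ P hP v : ↥(fixF σ)) : F) = P (emb σ v) := rfl

theorem descend_polar (P : QuadraticForm F (ι → F))
    (hP : ∀ v : ι → ↥(fixF σ), σ (P (emb σ v)) = P (emb σ v)) (v w : ι → ↥(fixF σ)) :
    ((QuadraticMap.polar ⇑(descend σ P hP) v w : ↥(fixF σ)) : F) =
      QuadraticMap.polar ⇑P (emb σ v) (emb σ w) := rfl

theorem descend_nondeg (P : QuadraticForm F (ι → F))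
    (hP : ∀ v : ι → ↥(fixF σ), σ (P (emb σ v)) = P (emb σ v))
    (hnd : (QuadraticMap.polarBilin P).Nondegenerate) :
    (QuadraticMap.polarBilin (descend σ P hP)).Nondegenerate := by
  have key : ∀ x : ι → ↥(fixF σ),
      (∀ y, QuadraticMap.polar ⇑(descend σ P hP) x y = 0) → x = 0 := by
    intro x hx
    apply emb_injective σ
    rw [emb_zero]
    apply hnd.1
    intro z
    have e : QuadraticMap.polarBilin P (emb σ x) = 0 := by
      apply (Pi.basisFun F ι).ext
      intro i
      rw [Pi.basisFun_apply, ← emb_single σ i, QuadraticMap.polarBilin_apply_apply,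
        ← descend_polar σ P hP, hx]
      rfl
    rw [e]
    rfl
  constructor
  · intro x hx
    exact key x hx
  · intro x hx
    apply key x
    intro y
    rw [QuadraticMap.polar_comm]
    exact hx y

end descent


section aniso

open Cfsg.Agent.Lib.Helper99 QuadraticMap

theorem disc_ne {K : Type*} [Field K] (c : K) (ht : ∀ t : K, t ^ 2 + t + c ≠ 0) :
    4 * c - 1 ≠ 0 := by
  intro h
  by_cases h2 : (2 : K) = 0
  · have h4 : (4 : K) = 0 := by linear_combination 2 * h2
    rw [h4] at h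
    simp at h
  · apply ht (-(2 : K)⁻¹)
    field_simp
    linear_combination h

theorem root_unique {K : Type*} [Field K] (θ θ' γ : K) (h1 : θ ^ 2 + θ + γ = 0)
    (h2 : θ' ^ 2 + θ' + γ = 0) (h3 : 2 * θ * θ' + θ + θ' + 2 * γ = 0) (hd : 4 * γ - 1 ≠ 0) :
    θ = θ' := by
  have h : (θ - θ') * (θ + θ' + 1) = 0 := by linear_combination h1 - h2
  rcases mul_eq_zero.mp h with h | h
  · exact sub_eq_zero.mp h
  · exfalso
    apply hd
    linear_combination h3 - (2 * θ + 1) * h + 2 * h1

/-- A maximal totally singular subspace through the hyperbolic part of a Witt basis with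
anisotropic binary part, stable under a semilinear map fixing the basis, yields a root of the
binary form fixed by the field automorphism. -/
theorem aniso_contra {F V : Type*} [Field F] [AddCommGroup V] [Module F V] [FiniteDimensional F V]
    (Q' : QuadraticForm F V) (σ : RingAut F) {k : ℕ} (Ee Ff : Fin k → V) (X Y : V) (γ : F)
    (hH : HypFam Q' Ee Ff)
    (hX : ∀ i, polar Q' X (Ee i) = 0 ∧ polar Q' X (Ff i) = 0)
    (hY : ∀ i, polar Q' Y (Ee i) = 0 ∧ polar Q' Y (Ff i) = 0)
    (hQX : Q' X = 1) (hXY : polar Q' X Y = 1) (hQY : Q' Y = γ) (hd : 4 * γ - 1 ≠ 0)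
    (hfin : finrank F V = 2 * k + 2)
    (T : V → V) (hTadd : ∀ v w, T (v + w) = T v + T w)
    (hTsmul : ∀ (a : F) v, T (a • v) = σ a • T v) (hTX : T X = X) (hTY : T Y = Y)
    (W : Submodule F V) (hW0 : ∀ w ∈ W, Q' w = 0) (hEW : ∀ i, Ee i ∈ W)
    (hWk : finrank F W = k + 1) (hTW : ∀ w ∈ W, T w ∈ W) :
    ∃ θ : F, σ θ = θ ∧ θ ^ 2 + θ + γ = 0 := by
  classical
  have hXX : polar Q' X X = 2 := by rw [polar_self, hQX]; simp
  have hYY : polar Q' Y Y = 2 * γ := by rw [polar_self, hQY]; simp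
  have hYX : polar Q' Y X = 1 := by rw [polar_comm, hXY]
  have hWp : ∀ a ∈ W, ∀ b ∈ W, polar Q' a b = 0 := by
    intro a ha b hb
    unfold polar
    rw [hW0 _ (W.add_mem ha hb), hW0 a ha, hW0 b hb]
    simp
  -- the binary part is independent
  have hz : LinearIndependent F ![X, Y] := by
    rw [LinearIndependent.pair_iff]
    intro s t hst
    have e1 := congrArg (fun v => polar Q' v X) hst
    have e2 := congrArg (fun v => polar Q' v Y) hst
    simp only [polar_add_left, polar_smul_left, hXX, hYX, hXY, hYY, smul_eq_mul] at e1 e2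
    have e1' : s * 2 + t * 1 = 0 := by rw [e1]; simp [polar]
    have e2' : s * 1 + t * (2 * γ) = 0 := by rw [e2]; simp [polar]
    have hs : s * (4 * γ - 1) = 0 := by linear_combination 2 * γ * e1' - e2'
    have hs0 : s = 0 := (mul_eq_zero.mp hs).resolve_right hd
    refine ⟨hs0, ?_⟩
    rw [hs0] at e1'
    linear_combination e1'
  obtain ⟨B', hB1, hB2, hB3⟩ := mkBasis' Q' Ee Ff hH ![X, Y] hz
    (by
      intro j i
      fin_cases j
      · exact hX i
      · exact hY i)
    (by rw [hfin, Fintype.card_fin])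
  -- a vector of `W` outside the span of the `Ee`
  have hUle : finrank F (Submodule.span F (Set.range Ee)) ≤ k := by
    have := finrank_range_le_card (R := F) Ee
    rwa [Fintype.card_fin] at this
  obtain ⟨w, hwW, hwU⟩ : ∃ w ∈ W, w ∉ Submodule.span F (Set.range Ee) := by
    by_contra hcon
    push Not at hcon
    have hle : W ≤ Submodule.span F (Set.range Ee) := hcon
    have := Submodule.finrank_mono hle
    omega
  have hw : w = (∑ i, B'.repr w (Sum.inl (Sum.inl i)) • Ee i +
      ∑ i, B'.repr w (Sum.inl (Sum.inr i)) • Ff i) +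
      (B'.repr w (Sum.inr 0) • X + B'.repr w (Sum.inr 1) • Y) := by
    conv_lhs => rw [← B'.sum_repr w]
    rw [Fintype.sum_sum_type, Fintype.sum_sum_type, Fin.sum_univ_two]
    simp only [hB1, hB2, hB3]
    rfl
  obtain ⟨a, ha⟩ : ∃ a : Fin k → F, a = fun i => B'.repr w (Sum.inl (Sum.inl i)) := ⟨_, rfl⟩
  obtain ⟨b, hb⟩ : ∃ b : Fin k → F, b = fun i => B'.repr w (Sum.inl (Sum.inr i)) := ⟨_, rfl⟩
  obtain ⟨α, hα⟩ : ∃ α : F, α = B'.repr w (Sum.inr 0) := ⟨_, rfl⟩
  obtain ⟨β, hβ⟩ : ∃ β : F, β = B'.repr w (Sum.inr 1) := ⟨_, rfl⟩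
  have hw' : w = (∑ i, a i • Ee i + ∑ i, b i • Ff i) + (α • X + β • Y) := by
    rw [ha, hb, hα, hβ]
    exact hw
  have hb0 : ∀ j, b j = 0 := by
    intro j
    have h1 := hWp w hwW (Ee j) (hEW j)
    have h2 : ∀ i, polar Q' (Ff i) (Ee j) = if j = i then 1 else 0 := by
      intro i
      rw [polar_comm, hH.2.1]
    rw [hw', ← polarBilin_apply_apply] at h1
    simp only [map_add, map_sum, map_smul, LinearMap.add_apply, LinearMap.sum_apply,
      LinearMap.smul_apply, polarBilin_apply_apply, smul_eq_mul, h2, (hH.2.2 _ _).1, (hX _).1,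
      (hY _).1, mul_zero, Finset.sum_const_zero, add_zero, zero_add, mul_ite, mul_one,
      Finset.sum_ite_eq, Finset.mem_univ, if_true] at h1
    exact h1
  have hsumE : ∑ i, a i • Ee i ∈ W := W.sum_mem (fun i _ => W.smul_mem _ (hEW i))
  have hw'' : α • X + β • Y = w - ∑ i, a i • Ee i := by
    rw [hw']
    simp only [hb0, zero_smul, Finset.sum_const_zero, add_zero]
    abel
  have hw2W : α • X + β • Y ∈ W := by
    rw [hw'']
    exact W.sub_mem hwW hsumE
  have hne : ¬ (α = 0 ∧ β = 0) := by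
    rintro ⟨h1, h2⟩
    apply hwU
    have : w = ∑ i, a i • Ee i := by
      rw [h1, h2, zero_smul, zero_smul, add_zero] at hw''
      exact (sub_eq_zero.mp hw''.symm)
    rw [this]
    exact Submodule.sum_mem _ (fun i _ => Submodule.smul_mem _ _
      (Submodule.subset_span ⟨i, rfl⟩))
  have hq : ∀ s t : F, Q' (s • X + t • Y) = s * s + t * t * γ + s * t := by
    intro s t
    have h := QuadraticMap.map_add Q' (s • X) (t • Y)
    rw [h, QuadraticMap.map_smul, QuadraticMap.map_smul, polar_smul_left, polar_smul_right, hQX,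
      hQY, hXY]
    simp only [smul_eq_mul]
    ring
  have e1 : α * α + β * β * γ + α * β = 0 := by
    rw [← hq]
    exact hW0 _ hw2W
  have hβ0 : β ≠ 0 := by
    intro h
    apply hne
    rw [h] at e1
    have : α * α = 0 := by linear_combination e1
    exact ⟨mul_self_eq_zero.mp this, h⟩
  have hTw : T (α • X + β • Y) = σ α • X + σ β • Y := by
    rw [hTadd, hTsmul, hTsmul, hTX, hTY]
  have hTwW : σ α • X + σ β • Y ∈ W := by
    rw [← hTw]
    exact hTW _ hw2W
  have e2 : σ α * σ α + σ β * σ β * γ + σ α * σ β = 0 := by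
    rw [← hq]
    exact hW0 _ hTwW
  have e3 : 2 * α * σ α + α * σ β + β * σ α + 2 * γ * β * σ β = 0 := by
    have h := hWp _ hw2W _ hTwW
    simp only [polar_add_left, polar_add_right, polar_smul_left, polar_smul_right, hXX, hYX, hXY,
      hYY, smul_eq_mul] at h
    linear_combination h
  have hσβ : σ β ≠ 0 := fun h => hβ0 ((map_eq_zero σ).mp h)
  refine ⟨α / β, ?_, ?_⟩
  · rw [map_div₀]
    symm
    apply root_unique (α / β) (σ α / σ β) γ _ _ _ hd
    · field_simp
      linear_combination e1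
    · field_simp
      linear_combination e2
    · field_simp
      linear_combination e3
  · field_simp
    linear_combination e1

end aniso


section core

variable {F : Type*} [Field F] [Fintype F] (m : ℕ)

theorem plus_quad_emb (σ : RingAut F) (v : Fin m ⊕ Fin m → ↥(fixF σ)) :
    plusQF m F (emb σ v) = ((plusQF m ↥(fixF σ) v : ↥(fixF σ)) : F) := by
  have h1 : plusQF m F (emb σ v) = Cfsg.quadFormPlus m F (emb σ v) :=
    congrFun (plusQF_coe m F) _
  have h2 : plusQF m ↥(fixF σ) v = Cfsg.quadFormPlus m ↥(fixF σ) v :=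
    congrFun (plusQF_coe m _) _
  rw [h1, h2]
  unfold Cfsg.quadFormPlus emb
  push_cast
  rfl

/-- **Lang-Steinberg for the class-preserving semisimilarities of the hyperbolic form.** A
class-preserving semisimilarity `v ↦ u σ(v)` of order `r = |σ|` (as a semilinear map) is
`k σ k⁻¹` for a similarity `k`. -/
theorem field_core (hm : 1 ≤ m) (y : SemiGL (Fin m ⊕ Fin m) F)
    (hy : y ∈ semiSim ⇑(plusQF m F)) (r : ℕ) (hσ : orderOf y.right = r) (hpos : 0 < r)
    (hyr : y ^ r = 1)
    (hcls : ∀ W : Submodule F (Fin m ⊕ Fin m → F), IsMTS (plusQF m F) m W →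
      Even (m - finrank F ↥(W ⊓ simg y W))) :
    ∃ (K : Matrix (Fin m ⊕ Fin m) (Fin m ⊕ Fin m) F) (c : F), IsUnit K.det ∧ c ≠ 0 ∧
      (∀ x, plusQF m F (K *ᵥ x) = c * plusQF m F x) ∧
      (y.left : Matrix (Fin m ⊕ Fin m) (Fin m ⊕ Fin m) F) * K.map y.right = K := by
  classical
  obtain ⟨σ, hσdef⟩ : ∃ σ : RingAut F, σ = y.right := ⟨_, rfl⟩
  obtain ⟨u, hudef⟩ : ∃ u : Matrix (Fin m ⊕ Fin m) (Fin m ⊕ Fin m) F,
      u = (y.left : Matrix (Fin m ⊕ Fin m) (Fin m ⊕ Fin m) F) := ⟨_, rfl⟩
  rw [← hσdef, ← hudef]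
  have hsact : ∀ v, sact y v = u *ᵥ (fun i => σ (v i)) := by
    intro v
    rw [hudef, hσdef]
    rfl
  obtain ⟨c, hc⟩ := (mem_semiSim_iff _ y).mp hy
  rw [← hσdef] at hc
  have hc0 : (c : F) ≠ 0 := c.ne_zero
  -- Hilbert 90
  obtain ⟨h₀, hh₀u, hh₀⟩ := exists_fixed_matrix σ u
    (fun i => ((y ^ i : SemiGL (Fin m ⊕ Fin m) F).left :
      Matrix (Fin m ⊕ Fin m) (Fin m ⊕ Fin m) F)) r
    (by rw [pow_zero]; rfl)
    (by
      intro i
      show ((y ^ (i + 1) : SemiGL (Fin m ⊕ Fin m) F).left :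
        Matrix (Fin m ⊕ Fin m) (Fin m ⊕ Fin m) F) = _
      rw [pow_succ', SemidirectProduct.mul_left, Units.val_mul, glAut_apply, glMap_coe, hudef,
        hσdef])
    (by
      show ((y ^ r : SemiGL (Fin m ⊕ Fin m) F).left :
        Matrix (Fin m ⊕ Fin m) (Fin m ⊕ Fin m) F) = 1
      rw [hyr]
      rfl)
    (by rw [hσdef]; exact hσ) hpos
  have hdet₀ : IsUnit h₀.det := (Matrix.isUnit_iff_isUnit_det _).mp hh₀u
  -- fixed vectors
  have hfx : ∀ v : Fin m ⊕ Fin m → ↥(fixF σ), sact y (h₀ *ᵥ emb σ v) = h₀ *ᵥ emb σ v := by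
    intro v
    rw [hsact, sigma_mulVec, map_emb, Matrix.mulVec_mulVec, hh₀]
  have hnd := plusQF_nondegenerate m F
  -- a rational vector with nonzero value
  obtain ⟨v₀, hv₀⟩ : ∃ v₀ : Fin m ⊕ Fin m → ↥(fixF σ),
      plusQF m F (h₀ *ᵥ emb σ v₀) ≠ 0 := by
    by_contra hcon
    push Not at hcon
    have e : (plusQF m F).comp (Matrix.mulVecLin h₀) = 0 := by
      apply quad_ext_emb σ
      intro v
      rw [QuadraticMap.comp_apply, Matrix.mulVecLin_apply, hcon]
      rfl
    have hall : ∀ w, plusQF m F w = 0 := by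
      intro w
      have h1 := congrArg (fun P : QuadraticForm F (Fin m ⊕ Fin m → F) => P (h₀⁻¹ *ᵥ w)) e
      simp only [QuadraticMap.comp_apply, Matrix.mulVecLin_apply, Matrix.mulVec_mulVec,
        QuadraticMap.zero_apply] at h1
      rwa [Matrix.mul_nonsing_inv _ hdet₀, Matrix.one_mulVec] at h1
    have hx0 : (Pi.single (Sum.inl ⟨0, hm⟩) 1 : Fin m ⊕ Fin m → F) = 0 := by
      apply hnd.1
      intro z
      rw [QuadraticMap.polarBilin_apply_apply]
      unfold QuadraticMap.polar
      rw [hall, hall, hall]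
      simp
    have := congrFun hx0 (Sum.inl ⟨0, hm⟩)
    simp at this
  obtain ⟨q₀, hq₀⟩ : ∃ q₀ : F, q₀ = plusQF m F (h₀ *ᵥ emb σ v₀) := ⟨_, rfl⟩
  rw [← hq₀] at hv₀
  have hq₀inv : q₀⁻¹ ≠ 0 := inv_ne_zero hv₀
  have hval : ∀ v : Fin m ⊕ Fin m → ↥(fixF σ),
      plusQF m F (h₀ *ᵥ emb σ v) = (c : F) * σ (plusQF m F (h₀ *ᵥ emb σ v)) := by
    intro v
    have h := hc (h₀ *ᵥ emb σ v)
    rw [hfx] at h
    exact h
  have hσq : σ q₀ = q₀ / (c : F) := by
    have h := hval v₀
    rw [← hq₀] at h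
    rw [eq_div_iff hc0, mul_comm]
    exact h.symm
  -- the rescaled form
  obtain ⟨Q', hQ'⟩ : ∃ Q' : QuadraticForm F (Fin m ⊕ Fin m → F), Q' = q₀⁻¹ • plusQF m F :=
    ⟨_, rfl⟩
  have hQ'a : ∀ w, Q' w = q₀⁻¹ * plusQF m F w := by
    intro w
    rw [hQ']
    rfl
  have hQ'p : ∀ a b, QuadraticMap.polar ⇑Q' a b =
      q₀⁻¹ * QuadraticMap.polar ⇑(plusQF m F) a b := by
    intro a b
    unfold QuadraticMap.polar
    rw [hQ'a, hQ'a, hQ'a]
    ring
  have hP : ∀ v : Fin m ⊕ Fin m → ↥(fixF σ),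
      σ ((Q'.comp (Matrix.mulVecLin h₀)) (emb σ v)) =
        (Q'.comp (Matrix.mulVecLin h₀)) (emb σ v) := by
    intro v
    rw [QuadraticMap.comp_apply, Matrix.mulVecLin_apply, hQ'a, map_mul, map_inv₀, hσq]
    have h := hval v
    generalize σ (plusQF m F (h₀ *ᵥ emb σ v)) = s at h ⊢
    rw [h]
    field_simp
  obtain ⟨P₀, hP₀⟩ : ∃ P₀ : QuadraticForm ↥(fixF σ) (Fin m ⊕ Fin m → ↥(fixF σ)),
      P₀ = descend σ (Q'.comp (Matrix.mulVecLin h₀)) hP := ⟨_, rfl⟩
  have hq : ∀ v, Q' (h₀ *ᵥ emb σ v) = ((P₀ v : ↥(fixF σ)) : F) := by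
    intro v
    rw [hP₀]
    rfl
  have hp : ∀ v w, QuadraticMap.polar ⇑Q' (h₀ *ᵥ emb σ v) (h₀ *ᵥ emb σ w) =
      ((QuadraticMap.polar ⇑P₀ v w : ↥(fixF σ)) : F) := by
    intro v w
    rw [hP₀, descend_polar]
    unfold QuadraticMap.polar
    simp only [QuadraticMap.comp_apply, Matrix.mulVecLin_apply, Matrix.mulVec_add]
  have hPnd : (QuadraticMap.polarBilin (Q'.comp (Matrix.mulVecLin h₀))).Nondegenerate := by
    have key : ∀ x, (∀ z, QuadraticMap.polar ⇑(Q'.comp (Matrix.mulVecLin h₀)) x z = 0) →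
        x = 0 := by
      intro x hx
      have h1 : h₀ *ᵥ x = 0 := by
        apply hnd.1
        intro z
        have h2 := hx (h₀⁻¹ *ᵥ z)
        unfold QuadraticMap.polar at h2
        simp only [QuadraticMap.comp_apply, Matrix.mulVecLin_apply, Matrix.mulVec_add,
          Matrix.mulVec_mulVec] at h2
        rw [Matrix.mul_nonsing_inv _ hdet₀, Matrix.one_mulVec] at h2
        have h2' : QuadraticMap.polar ⇑Q' (h₀ *ᵥ x) z = 0 := h2
        rw [hQ'p] at h2'
        rw [QuadraticMap.polarBilin_apply_apply]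
        exact (mul_eq_zero.mp h2').resolve_left hq₀inv
      have h4 := congrArg (fun w => h₀⁻¹ *ᵥ w) h1
      simp only [Matrix.mulVec_mulVec, Matrix.mulVec_zero] at h4
      rwa [Matrix.nonsing_inv_mul _ hdet₀, Matrix.one_mulVec] at h4
    constructor
    · intro x hx
      exact key x hx
    · intro x hx
      apply key x
      intro z
      rw [QuadraticMap.polar_comm]
      exact hx z
  haveI : Fintype ↥(fixF σ) := Fintype.ofFinite _
  have hP₀nd : (QuadraticMap.polarBilin P₀).Nondegenerate := by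
    rw [hP₀]
    exact descend_nondeg σ _ hP hPnd
  have hfin₀ : finrank ↥(fixF σ) (Fin m ⊕ Fin m → ↥(fixF σ)) = 2 * m := by
    rw [Module.finrank_fintype_fun_eq_card, Fintype.card_sum, Fintype.card_fin]
    omega
  obtain ⟨k, e, f, hH, hcase⟩ := Cfsg.Agent.Lib.Helper99.witt P₀ hP₀nd
  rcases hcase with ⟨b, hb1, hb2⟩ | ⟨x, b, -⟩ |
    ⟨x₀, y₀, b, hQx, hxy, ht, hxe, hye, hb1, hb2, hb3, hb4⟩
  · -- the split case
    have hk : k = m := by
      have h := Module.finrank_eq_card_basis b
      rw [hfin₀] at h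
      simp only [Fintype.card_sum, Fintype.card_fin] at h
      omega
    subst hk
    obtain ⟨K₀, hK₀⟩ : ∃ K₀ : Matrix (Fin k ⊕ Fin k) (Fin k ⊕ Fin k) ↥(fixF σ),
        K₀ = LinearMap.toMatrix' (b.equivFun.symm :
          (Fin k ⊕ Fin k → ↥(fixF σ)) →ₗ[↥(fixF σ)] (Fin k ⊕ Fin k → ↥(fixF σ))) := ⟨_, rfl⟩
    have hK₀v : ∀ v, K₀ *ᵥ v = ∑ i, v i • b i := by
      intro v
      rw [hK₀, ← Matrix.toLin'_apply, Matrix.toLin'_toMatrix']
      exact b.equivFun_symm_apply v
    have hK₀det : IsUnit K₀.det := by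
      rw [hK₀, LinearMap.det_toMatrix']
      exact LinearEquiv.isUnit_det' b.equivFun.symm
    obtain ⟨K, hK⟩ : ∃ K : Matrix (Fin k ⊕ Fin k) (Fin k ⊕ Fin k) F,
        K = K₀.map (fixF σ).subtype := ⟨_, rfl⟩
    have hKemb : ∀ v, K *ᵥ emb σ v = emb σ (K₀ *ᵥ v) := by
      intro v
      funext i
      rw [hK]
      exact (RingHom.map_mulVec (fixF σ).subtype K₀ v i).symm
    have hKσ : K.map σ = K := by
      rw [hK]
      ext a b'
      exact (mem_fixF σ).mp (K₀ a b').2
    have hKdet : IsUnit K.det := by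
      rw [hK, ← RingHom.mapMatrix_apply, ← RingHom.map_det]
      exact hK₀det.map _
    have hform : Q'.comp (Matrix.mulVecLin (h₀ * K)) = plusQF k F := by
      apply quad_ext_emb σ
      intro v
      rw [QuadraticMap.comp_apply, Matrix.mulVecLin_apply, ← Matrix.mulVec_mulVec, hKemb, hq,
        hK₀v, plus_quad_emb]
      congr 1
      rw [Fintype.sum_sum_type]
      have h := Cfsg.Agent.Lib.Helper99.hyp_eval P₀ e f hH (fun i => v (Sum.inl i))
        (fun i => v (Sum.inr i)) 0 (by intro i; simp)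
      simp only [hb1, hb2]
      rw [add_zero, map_zero, add_zero] at h
      rw [h]
      exact (congrFun (plusQF_coe k _) v).symm
    refine ⟨h₀ * K, q₀, ?_, hv₀, ?_, ?_⟩
    · rw [Matrix.det_mul]
      exact hdet₀.mul hKdet
    · intro x
      have h := congrArg (fun P : QuadraticForm F (Fin k ⊕ Fin k → F) => P x) hform
      simp only [QuadraticMap.comp_apply, Matrix.mulVecLin_apply] at h
      rw [hQ'a] at h
      rw [← h]
      field_simp
    · have e1 : (h₀ * K).map σ = h₀.map σ * K.map σ := Matrix.map_mul (f := (σ : F →+* F))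
      rw [e1, hKσ, ← Matrix.mul_assoc, hh₀]
  · -- odd dimension is impossible
    exfalso
    have h := Module.finrank_eq_card_basis b
    rw [hfin₀] at h
    simp only [Fintype.card_sum, Fintype.card_fin, Fintype.card_unit] at h
    omega
  · -- the non-split case contradicts the class condition
    exfalso
    have hk : k + 1 = m := by
      have h := Module.finrank_eq_card_basis b
      rw [hfin₀] at h
      simp only [Fintype.card_sum, Fintype.card_fin] at h
      omega
    obtain ⟨γ₀, hγ₀⟩ : ∃ γ₀ : ↥(fixF σ), γ₀ = P₀ y₀ := ⟨_, rfl⟩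
    have hd₀ := disc_ne γ₀ (by rw [hγ₀]; exact ht)
    have hd : 4 * (γ₀ : F) - 1 ≠ 0 := by
      intro h
      apply hd₀
      apply Subtype.ext
      push_cast
      exact h
    obtain ⟨Ee, hEe⟩ : ∃ Ee : Fin k → (Fin m ⊕ Fin m → F),
        Ee = fun i => h₀ *ᵥ emb σ (e i) := ⟨_, rfl⟩
    obtain ⟨Ff, hFf⟩ : ∃ Ff : Fin k → (Fin m ⊕ Fin m → F),
        Ff = fun i => h₀ *ᵥ emb σ (f i) := ⟨_, rfl⟩
    have hH' : Cfsg.Agent.Lib.Helper99.HypFam Q' Ee Ff := by
      rw [hEe, hFf]
      refine ⟨fun i => ⟨?_, ?_⟩, fun i j => ?_, fun i j => ⟨?_, ?_⟩⟩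
      · rw [hq, (hH.1 i).1]; rfl
      · rw [hq, (hH.1 i).2]; rfl
      · rw [hp, hH.2.1 i j]
        split_ifs <;> rfl
      · rw [hp, (hH.2.2 i j).1]; rfl
      · rw [hp, (hH.2.2 i j).2]; rfl
    have hXp : ∀ i, QuadraticMap.polar ⇑Q' (h₀ *ᵥ emb σ x₀) (Ee i) = 0 ∧
        QuadraticMap.polar ⇑Q' (h₀ *ᵥ emb σ x₀) (Ff i) = 0 := by
      intro i
      rw [hEe, hFf]
      exact ⟨by rw [hp, (hxe i).1]; rfl, by rw [hp, (hxe i).2]; rfl⟩
    have hYp : ∀ i, QuadraticMap.polar ⇑Q' (h₀ *ᵥ emb σ y₀) (Ee i) = 0 ∧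
        QuadraticMap.polar ⇑Q' (h₀ *ᵥ emb σ y₀) (Ff i) = 0 := by
      intro i
      rw [hEe, hFf]
      exact ⟨by rw [hp, (hye i).1]; rfl, by rw [hp, (hye i).2]; rfl⟩
    have hQX : Q' (h₀ *ᵥ emb σ x₀) = 1 := by rw [hq, hQx]; rfl
    have hXY : QuadraticMap.polar ⇑Q' (h₀ *ᵥ emb σ x₀) (h₀ *ᵥ emb σ y₀) = 1 := by
      rw [hp, hxy]; rfl
    have hQY : Q' (h₀ *ᵥ emb σ y₀) = (γ₀ : F) := by rw [hq, hγ₀]
    have hEfix : ∀ i, sact y (Ee i) = Ee i := by
      intro i
      rw [hEe]
      exact hfx _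
    have hU0 : ∀ x ∈ Submodule.span F (Set.range Ee), plusQF m F x = 0 := by
      intro x hx
      obtain ⟨a, rfl⟩ := (Submodule.mem_span_range_iff_exists_fun F).mp hx
      have h := Cfsg.Agent.Lib.Helper99.sing_sum Q' Finset.univ Ee a (fun i => (hH'.1 i).1)
        (fun i j => (hH'.2.2 i j).1)
      rw [hQ'a] at h
      exact (mul_eq_zero.mp h).resolve_left hq₀inv
    obtain ⟨W, hW, hUW⟩ := exists_isMTS_ge hnd (finrank_plus m F) (stdE_isMTS m F) hU0
    have hUstab : ∀ w ∈ Submodule.span F (Set.range Ee),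
        sact y w ∈ Submodule.span F (Set.range Ee) := by
      intro w hw
      induction hw using Submodule.span_induction with
      | mem x hx =>
        obtain ⟨i, rfl⟩ := hx
        rw [hEfix]
        exact Submodule.subset_span ⟨i, rfl⟩
      | zero =>
        rw [sact_zero]
        exact Submodule.zero_mem _
      | add a b _ _ ha hb =>
        rw [sact_add]
        exact Submodule.add_mem _ ha hb
      | smul t a _ ha =>
        rw [sact_smul]
        exact Submodule.smul_mem _ _ ha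
    have hUle : Submodule.span F (Set.range Ee) ≤ W ⊓ simg y W := by
      apply le_inf hUW
      rw [← simg_eq_of_stab y _ hUstab]
      exact simg_mono y hUW
    have hUk : finrank F (Submodule.span F (Set.range Ee)) = k := by
      have hli : LinearIndependent F Ee := by
        have h := Cfsg.Agent.Lib.Helper99.hyp_li Q' Ee Ff hH'
          (Fin.elim0 : Fin 0 → (Fin m ⊕ Fin m → F)) linearIndependent_empty_type
          (fun j => j.elim0)
        exact h.comp (fun i : Fin k => (Sum.inl (Sum.inl i) : (Fin k ⊕ Fin k) ⊕ Fin 0))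
          (fun a b hab => by simpa using hab)
      rw [finrank_span_eq_card hli, Fintype.card_fin]
    have hev := hcls W hW
    have hle1 := Submodule.finrank_mono hUle
    have hle2 : finrank F ↥(W ⊓ simg y W) ≤ m := by
      have := Submodule.finrank_mono (inf_le_left : W ⊓ simg y W ≤ W)
      rwa [hW.1] at this
    have hfull : finrank F ↥(W ⊓ simg y W) = m := by
      rw [hUk] at hle1
      rcases hev with ⟨t, ht'⟩
      omega
    have hWW : simg y W = W := by
      have h1 : W ⊓ simg y W = W :=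
        Submodule.eq_of_le_of_finrank_eq inf_le_left (by rw [hfull, hW.1])
      have h2 : W ≤ simg y W := by
        have h3 : W ⊓ simg y W ≤ simg y W := inf_le_right
        rwa [h1] at h3
      exact (Submodule.eq_of_le_of_finrank_eq h2 (by rw [finrank_simg])).symm
    obtain ⟨θ, hθ1, hθ2⟩ := aniso_contra Q' σ Ee Ff (h₀ *ᵥ emb σ x₀) (h₀ *ᵥ emb σ y₀) (γ₀ : F)
      hH' hXp hYp hQX hXY hQY hd (by rw [finrank_plus]; omega) (sact y) (sact_add y)
      (fun a v => by rw [sact_smul, hσdef]) (hfx x₀) (hfx y₀) W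
      (fun w hw => by rw [hQ'a, hW.2 w hw, mul_zero])
      (fun i => hUW (Submodule.subset_span ⟨i, rfl⟩)) (by rw [hW.1, hk])
      (fun w hw => by
        have h := sact_mem_simg y hw
        rwa [hWW] at h)
    rw [hγ₀] at hθ2
    exact ht ⟨θ, (mem_fixF σ).mpr hθ1⟩ (by
      apply Subtype.ext
      push_cast
      exact hθ2)

end core

end Cfsg.Agent.Lib.Helper8.PlusDesc
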