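import Mathlib
import Cfsg.Agent.Lib.Helper8.PlusDesc
import Cfsg.Agent.Lib.Helper44.PgoInn
import Cfsg.Agent.Lib.Helper44.PlusInnDiag
import Cfsg.Agent.Lib.Helper43.OrthAniso
import Cfsg.Agent.Lib.Helper14.AutOL

/-!
# Cosets of field and graph-field automorphisms of the hyperbolic orthogonal groups

Elements of prime order in the coset of a field or graph-field automorphism of `PΩ⁺_{2m}(F)` under
the inner-diagonal group are conjugate to it under the inner-diagonal group.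
-/

set_option autoImplicit false

namespace Cfsg.Agent.Lib.Helper8.PlusCoset

open Matrix Module Cfsg.Agent.Lib.Helper14 Cfsg.Agent.Lib.Helper44
  Cfsg.Agent.Lib.Helper43.FieldAut Cfsg.Agent.Lib.Helper8.PlusSemi Cfsg.Agent.Lib.Helper8.PlusDesc

section gen

variable {ι : Type} [Fintype ι] [DecidableEq ι] {F : Type*} [Field F]

theorem mul_left_mat (x y : SemiGL ι F) :
    ((x * y).left : Matrix ι ι F) = (x.left : Matrix ι ι F) * (y.left : Matrix ι ι F).map x.right := by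
  rw [SemidirectProduct.mul_left, Units.val_mul, glAut_apply, glMap_coe]

theorem semi_ext (x y : SemiGL ι F) (h1 : (x.left : Matrix ι ι F) = (y.left : Matrix ι ι F))
    (h2 : x.right = y.right) : x = y :=
  SemidirectProduct.ext (Units.ext h1) h2

theorem sact_sub (x : SemiGL ι F) (a b : ι → F) : sact x (a - b) = sact x a - sact x b := by
  have h := sact_add x (a - b) b
  rw [sub_add_cancel] at h
  exact eq_sub_of_add_eq h.symm

theorem sact_neg (x : SemiGL ι F) (a : ι → F) : sact x (-a) = -sact x a := by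
  have h := sact_sub x 0 a
  rwa [zero_sub, sact_zero, zero_sub] at h

theorem sact_of_right_eq_one (x : SemiGL ι F) (hx : x.right = 1) (w : ι → F) :
    sact x w = (x.left : Matrix ι ι F) *ᵥ w := by
  unfold sact
  rw [hx]
  rfl

theorem map_single (σ : RingAut F) (j : ι) :
    (fun i => σ ((Pi.single j (1 : F) : ι → F) i)) = Pi.single j (1 : F) := by
  funext i
  by_cases h : i = j
  · subst h
    simp
  · simp [Pi.single_eq_of_ne h]

/-- A pair is determined by its semilinear map. -/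
theorem sact_ext [Nonempty ι] (x y : SemiGL ι F) (h : ∀ v, sact x v = sact y v) : x = y := by
  have hl : (x.left : Matrix ι ι F) = (y.left : Matrix ι ι F) := by
    ext i j
    have h1 := congrFun (h (Pi.single j 1)) i
    unfold sact at h1
    rw [map_single, map_single, Matrix.mulVec_single_one, Matrix.mulVec_single_one] at h1
    exact h1
  apply semi_ext x y hl
  ext a
  obtain ⟨i₀⟩ := ‹Nonempty ι›
  have h1 := h (fun _ => a)
  unfold sact at h1
  rw [hl] at h1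
  have hu : IsUnit (y.left : Matrix ι ι F) := Units.isUnit _
  have h2 := (Matrix.mulVec_injective_iff_isUnit.mpr hu) h1
  exact congrFun h2 i₀

end gen

section plus

variable {F : Type*} [Field F] (m : ℕ)

omit [Field F] in
theorem smul_one_map [Field F] {ι : Type} [Fintype ι] [DecidableEq ι] (σ : RingAut F) (lam : F) :
    (lam • (1 : Matrix ι ι F)).map σ = σ lam • (1 : Matrix ι ι F) := by
  rw [Matrix.map_smul' _ _ _ (map_mul σ), Matrix.map_one _ (map_zero σ) (map_one σ)]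

/-- The semisimilarities of the hyperbolic form. -/
abbrev PS (m : ℕ) (F : Type*) [Field F] := ↥(semiSim ⇑(plusQF m F))

theorem plus_compat (σ : RingAut F) (v : Fin m ⊕ Fin m → F) :
    plusQF m F (fun i => σ (v i)) = σ (plusQF m F v) := by
  have h := congrFun (plusQF_coe m F)
  rw [h, h]
  unfold Cfsg.quadFormPlus
  rw [map_sum]
  simp only [map_mul]

theorem plus_polar_compat (σ : RingAut F) (v w : Fin m ⊕ Fin m → F) :
    QuadraticMap.polar ⇑(plusQF m F) (fun i => σ (v i)) (fun i => σ (w i)) =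
      σ (QuadraticMap.polar ⇑(plusQF m F) v w) := by
  unfold QuadraticMap.polar
  have e : ((fun i => σ (v i)) + fun i => σ (w i)) = fun i => σ ((v + w) i) := by
    funext i
    simp
  rw [e, plus_compat, plus_compat, plus_compat, map_sub, map_sub]

/-- The standard field automorphism as a semisimilarity. -/
noncomputable def fld (σ : RingAut F) : PS m F :=
  ⟨SemidirectProduct.inr σ, ⟨1, fun v => by
    rw [SemidirectProduct.left_inr, SemidirectProduct.right_inr, Units.val_one, Units.val_one,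
      Matrix.one_mulVec, one_mul]
    exact plus_compat m σ v⟩⟩

theorem fld_right (σ : RingAut F) : (fld m σ).1.right = σ := rfl

theorem fld_left (σ : RingAut F) :
    ((fld m σ).1.left : Matrix (Fin m ⊕ Fin m) (Fin m ⊕ Fin m) F) = 1 := rfl

theorem sact_fld (σ : RingAut F) (w : Fin m ⊕ Fin m → F) :
    sact (fld m σ).1 w = fun i => σ (w i) := by
  unfold sact
  rw [fld_left, fld_right, Matrix.one_mulVec]

/-- The class character for the hyperbolic form. -/
noncomputable def pcls : PS m F →* ℤˣ :=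
  clsHom (plusQF m F) (plusQF_nondegenerate m F) m (finrank_plus m F) (stdE m F) (stdE_isMTS m F)

/-- The inner-diagonal pairs of the hyperbolic form. -/
noncomputable def pN : Subgroup (PS m F) :=
  idSub (plusQF m F) (plusQF_nondegenerate m F) m (finrank_plus m F) (stdE m F) (stdE_isMTS m F)

theorem mem_pN (x : PS m F) : x ∈ pN m (F := F) ↔ pcls m x = 1 ∧ x.1.right = 1 := Iff.rfl

theorem pN_normal : (pN m (F := F)).Normal :=
  idSub_normal (plusQF m F) (plusQF_nondegenerate m F) m (finrank_plus m F) (stdE m F)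
    (stdE_isMTS m F)

theorem pcls_eq_one_iff (x : PS m F) {W : Submodule F (Fin m ⊕ Fin m → F)}
    (hW : IsMTS (plusQF m F) m W) :
    pcls m x = 1 ↔ Even (m - finrank F ↥(W ⊓ simg x.1 W)) :=
  cls_eq_one_iff (plusQF m F) (plusQF_nondegenerate m F) m (finrank_plus m F) (stdE m F)
    (stdE_isMTS m F) x hW

theorem pcls_fld (σ : RingAut F) : pcls m (fld m σ) = 1 := by
  apply cls_of_stab
  intro w hw
  rw [sact_fld]
  rw [mem_stdE] at hw ⊢
  intro i
  rw [hw i, map_zero]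

theorem pcls_refl (x : PS m F) (hx : x.1.right = 1) (v : Fin m ⊕ Fin m → F)
    (hv : plusQF m F v ≠ 0)
    (hl : (x.1.left : Matrix (Fin m ⊕ Fin m) (Fin m ⊕ Fin m) F) =
      Cfsg.reflectionMatrix ⇑(plusQF m F) v) : pcls m x = -1 :=
  cls_refl (plusQF m F) (plusQF_nondegenerate m F) m (finrank_plus m F) (stdE m F)
    (stdE_isMTS m F) x hx v hv hl

theorem pcls_scalar (x : PS m F) (hx : x.1.right = 1) (lam : F)
    (hl : (x.1.left : Matrix (Fin m ⊕ Fin m) (Fin m ⊕ Fin m) F) = lam • 1) : pcls m x = 1 := by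
  apply cls_of_stab
  intro w hw
  rw [sact_of_right_eq_one _ hx, hl, Matrix.smul_mulVec, Matrix.one_mulVec]
  exact Submodule.smul_mem _ _ hw

theorem exists_lin (K : Matrix (Fin m ⊕ Fin m) (Fin m ⊕ Fin m) F) (hK : IsUnit K.det) (c : F)
    (hc : c ≠ 0) (hsim : ∀ x, plusQF m F (K *ᵥ x) = c * plusQF m F x) :
    ∃ k : PS m F, k.1.right = 1 ∧
      (k.1.left : Matrix (Fin m ⊕ Fin m) (Fin m ⊕ Fin m) F) = K :=
  ⟨simToSemi ⇑(plusQF m F) ⟨Matrix.GeneralLinearGroup.mk'' K hK,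
    ⟨Units.mk0 c hc, fun v => hsim v⟩⟩, rfl, rfl⟩

theorem exists_scalar (lam : F) (hlam : lam ≠ 0) :
    ∃ s : PS m F, s.1.right = 1 ∧
      (s.1.left : Matrix (Fin m ⊕ Fin m) (Fin m ⊕ Fin m) F) = lam • 1 := by
  apply exists_lin m _ _ (lam * lam) (mul_ne_zero hlam hlam)
  · intro x
    rw [Matrix.smul_mulVec, Matrix.one_mulVec, QuadraticMap.map_smul]
    rfl
  · rw [Matrix.det_smul, Matrix.det_one, mul_one]
    exact (pow_ne_zero _ hlam).isUnit

theorem exists_refl (v : Fin m ⊕ Fin m → F) (hv : plusQF m F v ≠ 0) :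
    ∃ R : PS m F, R.1.right = 1 ∧
      (R.1.left : Matrix (Fin m ⊕ Fin m) (Fin m ⊕ Fin m) F) =
        Cfsg.reflectionMatrix ⇑(plusQF m F) v := by
  apply exists_lin m _ _ 1 one_ne_zero
  · intro x
    rw [one_mul]
    exact reflectionMatrix_isometry (plusQF m F) hv x
  · exact (Matrix.isUnit_iff_isUnit_det _).mp
      (isUnit_of_isometry (plusQF m F) (plusQF_nondegenerate m F) _
        (reflectionMatrix_isometry (plusQF m F) hv))

theorem semiAut_scalar (x : PS m F) (hx : x.1.right = 1) (lam : F)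
    (hl : (x.1.left : Matrix (Fin m ⊕ Fin m) (Fin m ⊕ Fin m) F) = lam • 1) :
    semiAut ⇑(plusQF m F) x = 1 := by
  obtain ⟨g, rfl⟩ := exists_sim_of_right_eq_one _ x hx
  rw [semiAut_simToSemi]
  exact simAut_eq_one_of_scalar _ g lam hl

theorem ker_scalar [Fintype F] (hm : 3 ≤ m) (x : PS m F)
    (hx : semiAut ⇑(plusQF m F) x = 1) :
    x.1.right = 1 ∧ ∃ lam : F, lam ≠ 0 ∧
      (x.1.left : Matrix (Fin m ⊕ Fin m) (Fin m ⊕ Fin m) F) = lam • 1 := by
  have h1 := semiAut_right_eq_one (plusQF m F) (plusQF_nondegenerate m F)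
    (by simp only [Fintype.card_sum, Fintype.card_fin]; omega) x hx
  obtain ⟨g, rfl⟩ := exists_sim_of_right_eq_one _ x h1
  rw [semiAut_simToSemi] at hx
  exact ⟨h1, scalar_of_simAut_eq_one (plusQF m F) (plusQF_nondegenerate m F) (stdE m F)
    (by rw [(stdE_isMTS m F).1]; exact hm) (stdE_isMTS m F).2 g hx⟩

theorem pcls_of_ker [Fintype F] (hm : 3 ≤ m) (x : PS m F)
    (hx : semiAut ⇑(plusQF m F) x = 1) : pcls m x = 1 := by
  obtain ⟨h1, lam, -, hl⟩ := ker_scalar m hm x hx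
  exact pcls_scalar m x h1 lam hl

theorem right_pow (z : PS m F) (i : ℕ) : (z ^ i).1.right = z.1.right ^ i :=
  map_pow (semiRight ⇑(plusQF m F)) z i

/-- Multiply a semisimilarity by a scalar so that its `r`-th power is trivial. -/
theorem normalize [Fintype F] (hm : 3 ≤ m) (Y : PS m F) (r : ℕ) (hσ : orderOf Y.1.right = r)
    (hY : semiAut ⇑(plusQF m F) Y ^ r = 1) :
    ∃ Y' : PS m F, Y'.1.right = Y.1.right ∧ Y' ^ r = 1 ∧
      semiAut ⇑(plusQF m F) Y' = semiAut ⇑(plusQF m F) Y ∧ pcls m Y' = pcls m Y := by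
  obtain ⟨σ, hσdef⟩ : ∃ σ : RingAut F, σ = Y.1.right := ⟨_, rfl⟩
  obtain ⟨U, hUdef⟩ : ∃ U : Matrix (Fin m ⊕ Fin m) (Fin m ⊕ Fin m) F,
      U = (Y.1.left : Matrix _ _ F) := ⟨_, rfl⟩
  have hYr : semiAut ⇑(plusQF m F) (Y ^ r) = 1 := by rw [map_pow]; exact hY
  obtain ⟨hr1, lam, hlam, hl⟩ := ker_scalar m hm (Y ^ r) hYr
  have hcomm : Y * Y ^ r = Y ^ r * Y := (pow_succ' Y r).symm.trans (pow_succ Y r)
  haveI : Nonempty (Fin m ⊕ Fin m) := ⟨Sum.inl ⟨0, by omega⟩⟩
  have hfix : σ lam = lam := by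
    have h1 := congrArg (fun z : PS m F =>
      (z.1.left : Matrix (Fin m ⊕ Fin m) (Fin m ⊕ Fin m) F)) hcomm
    simp only [Subgroup.coe_mul] at h1
    rw [mul_left_mat, mul_left_mat, hl, hr1, map_one_eq, smul_one_map, ← hσdef, ← hUdef,
      Matrix.mul_smul, Matrix.mul_one, Matrix.smul_mul, Matrix.one_mul] at h1
    have hU : IsUnit U := by rw [hUdef]; exact Units.isUnit _
    have h2 : (σ lam - lam) • U = 0 := by rw [sub_smul, h1, sub_self]
    rcases smul_eq_zero.mp h2 with h3 | h3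
    · exact sub_eq_zero.mp h3
    · exfalso
      rw [h3] at hU
      exact not_isUnit_zero hU
  have hσr : orderOf σ = r := by rw [hσdef]; exact hσ
  obtain ⟨ρ, hρ0, hρ⟩ := exists_norm_eq σ (inv_ne_zero hlam) (by rw [map_inv₀, hfix])
  rw [hσr] at hρ
  obtain ⟨s, hs1, hs2⟩ := exists_scalar m ρ hρ0
  have hsY_left : ((s * Y).1.left : Matrix (Fin m ⊕ Fin m) (Fin m ⊕ Fin m) F) = ρ • U := by
    rw [Subgroup.coe_mul, mul_left_mat, hs1, hs2, map_one_eq, Matrix.smul_mul, Matrix.one_mul,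
      hUdef]
  have hsY_right : (s * Y).1.right = σ := by
    rw [Subgroup.coe_mul, SemidirectProduct.mul_right, hs1, one_mul, hσdef]
  refine ⟨s * Y, ?_, ?_, ?_, ?_⟩
  · rw [hsY_right, hσdef]
  · have key : ∀ i : ℕ, (((s * Y) ^ i).1.left : Matrix (Fin m ⊕ Fin m) (Fin m ⊕ Fin m) F) =
        (∏ l ∈ Finset.range i, (σ ^ l) ρ) • ((Y ^ i).1.left : Matrix _ _ F) := by
      intro i
      induction i with
      | zero => simp
      | succ i ih =>
        have e1 : (((s * Y) ^ (i + 1)).1.left : Matrix (Fin m ⊕ Fin m) (Fin m ⊕ Fin m) F) =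
            (ρ • U) * (((s * Y) ^ i).1.left : Matrix _ _ F).map σ := by
          rw [pow_succ', Subgroup.coe_mul, mul_left_mat, hsY_left, hsY_right]
        have e2 : ((Y ^ (i + 1)).1.left : Matrix (Fin m ⊕ Fin m) (Fin m ⊕ Fin m) F) =
            U * ((Y ^ i).1.left : Matrix _ _ F).map σ := by
          rw [pow_succ', Subgroup.coe_mul, mul_left_mat, ← hUdef, ← hσdef]
        have e3 : ∀ l : ℕ, σ ((σ ^ l) ρ) = (σ ^ (l + 1)) ρ := by
          intro l
          rw [pow_succ']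
          rfl
        rw [e1, e2, ih, Matrix.map_smul' _ _ _ (map_mul σ), Matrix.smul_mul, Matrix.mul_smul,
          smul_smul, Finset.prod_range_succ', map_prod]
        simp only [e3]
        rw [pow_zero, mul_comm]
        rfl
    apply Subtype.ext
    apply semi_ext
    · rw [key r, hρ, hl, smul_smul, inv_mul_cancel₀ hlam, one_smul]
      rfl
    · rw [right_pow, hsY_right, ← hσr]
      exact pow_orderOf_eq_one σ
  · rw [map_mul, semiAut_scalar m s hs1 ρ hs2, one_mul]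
  · rw [map_mul, pcls_scalar m s hs1 ρ hs2, one_mul]

/-- Lang-Steinberg, in the group of semisimilarities. -/
theorem fc_core [Fintype F] (hm : 1 ≤ m) (Y : PS m F) (r : ℕ) (hσ : orderOf Y.1.right = r)
    (hpos : 0 < r) (hYr : Y ^ r = 1) (hcls : pcls m Y = 1) :
    ∃ k : PS m F, k.1.right = 1 ∧ Y * k = k * fld m Y.1.right := by
  have hyr : Y.1 ^ r = 1 := by
    have h := congrArg Subtype.val hYr
    rwa [Subgroup.coe_pow] at h
  obtain ⟨K, c, hK, hc, hsim, hfix⟩ := field_core m hm Y.1 Y.2 r hσ hpos hyr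
    (fun W hW => (pcls_eq_one_iff m Y hW).mp hcls)
  obtain ⟨k, hk1, hk2⟩ := exists_lin m K hK c hc hsim
  refine ⟨k, hk1, ?_⟩
  apply Subtype.ext
  apply semi_ext
  · rw [Subgroup.coe_mul, Subgroup.coe_mul, mul_left_mat, mul_left_mat, hk2, hk1, fld_left,
      hfix, map_one_eq, Matrix.mul_one]
  · rw [Subgroup.coe_mul, Subgroup.coe_mul, SemidirectProduct.mul_right,
      SemidirectProduct.mul_right, hk1, fld_right, mul_one, one_mul]

/-- The field case: a class-preserving element of order `r` in the coset of a field automorphism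
of order `r` is conjugate to it by a similarity. -/
theorem field_conj [Fintype F] (hm : 3 ≤ m) (Y : PS m F) (r : ℕ) (hσ : orderOf Y.1.right = r)
    (hpos : 0 < r) (hY : semiAut ⇑(plusQF m F) Y ^ r = 1) (hcls : pcls m Y = 1) :
    ∃ k : PS m F, k.1.right = 1 ∧ semiAut ⇑(plusQF m F) Y =
      semiAut ⇑(plusQF m F) k * semiAut ⇑(plusQF m F) (fld m Y.1.right) *
        (semiAut ⇑(plusQF m F) k)⁻¹ := by
  obtain ⟨Y', h1, h2, h3, h4⟩ := normalize m hm Y r hσ hY
  obtain ⟨k, hk1, hk2⟩ := fc_core m (by omega) Y' r (by rw [h1]; exact hσ) hpos h2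
    (by rw [h4]; exact hcls)
  refine ⟨k, hk1, ?_⟩
  rw [← h3, eq_mul_inv_iff_mul_eq, ← map_mul, ← map_mul, hk2, h1]

/-- A semilinear map of order `r = |σ|` fixes a nonsingular vector. -/
theorem exists_fixed_nonsing [Fintype F] (hm : 1 ≤ m) (y : SemiGL (Fin m ⊕ Fin m) F) (r : ℕ)
    (hσ : orderOf y.right = r) (hpos : 0 < r) (hyr : y ^ r = 1) :
    ∃ z : Fin m ⊕ Fin m → F, sact y z = z ∧ plusQF m F z ≠ 0 := by
  classical
  obtain ⟨σ, hσdef⟩ : ∃ σ : RingAut F, σ = y.right := ⟨_, rfl⟩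
  obtain ⟨u, hudef⟩ : ∃ u : Matrix (Fin m ⊕ Fin m) (Fin m ⊕ Fin m) F,
      u = (y.left : Matrix (Fin m ⊕ Fin m) (Fin m ⊕ Fin m) F) := ⟨_, rfl⟩
  have hsact : ∀ v, sact y v = u *ᵥ (fun i => σ (v i)) := by
    intro v
    rw [hudef, hσdef]
    rfl
  obtain ⟨h₀, hh₀u, hh₀⟩ := exists_fixed_matrix σ u
    (fun i => ((y ^ i : SemiGL (Fin m ⊕ Fin m) F).left :
      Matrix (Fin m ⊕ Fin m) (Fin m ⊕ Fin m) F)) r
    (by rw [pow_zero]; rfl)
    (by
      intro i
      show ((y ^ (i + 1) : SemiGL (Fin m ⊕ Fin m) F).left :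
        Matrix (Fin m ⊕ Fin m) (Fin m ⊕ Fin m) F) = _
      rw [pow_succ', SemidirectProduct.mul_left, Units.val_mul, glAut_apply, glMap_coe, hudef,
        hσdef])
    (by
      show ((y ^ r : SemiGL (Fin m ⊕ Fin m) F).left :
        Matrix (Fin m ⊕ Fin m) (Fin m ⊕ Fin m) F) = 1
      rw [hyr]
      rfl)
    (by rw [hσdef]; exact hσ) hpos
  have hdet₀ : IsUnit h₀.det := (Matrix.isUnit_iff_isUnit_det _).mp hh₀u
  have hfx : ∀ v : Fin m ⊕ Fin m → ↥(fixF σ), sact y (h₀ *ᵥ emb σ v) = h₀ *ᵥ emb σ v := by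
    intro v
    rw [hsact, sigma_mulVec, map_emb, Matrix.mulVec_mulVec, hh₀]
  have hnd := plusQF_nondegenerate m F
  obtain ⟨v₀, hv₀⟩ : ∃ v₀ : Fin m ⊕ Fin m → ↥(fixF σ),
      plusQF m F (h₀ *ᵥ emb σ v₀) ≠ 0 := by
    by_contra hcon
    push Not at hcon
    have e : (plusQF m F).comp (Matrix.mulVecLin h₀) = 0 := by
      apply quad_ext_emb σ
      intro v
      rw [QuadraticMap.comp_apply, Matrix.mulVecLin_apply, hcon]
      rfl
    have hall : ∀ w, plusQF m F w = 0 := by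
      intro w
      have h1 := congrArg (fun P : QuadraticForm F (Fin m ⊕ Fin m → F) => P (h₀⁻¹ *ᵥ w)) e
      simp only [QuadraticMap.comp_apply, Matrix.mulVecLin_apply, Matrix.mulVec_mulVec,
        QuadraticMap.zero_apply] at h1
      rwa [Matrix.mul_nonsing_inv _ hdet₀, Matrix.one_mulVec] at h1
    have hx0 : (Pi.single (Sum.inl ⟨0, hm⟩) 1 : Fin m ⊕ Fin m → F) = 0 := by
      apply hnd.1
      intro z
      rw [QuadraticMap.polarBilin_apply_apply]
      unfold QuadraticMap.polar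
      rw [hall, hall, hall]
      simp
    have := congrFun hx0 (Sum.inl ⟨0, hm⟩)
    simp at this
  exact ⟨h₀ *ᵥ emb σ v₀, hfx v₀, hv₀⟩

/-- Two nonsingular vectors with coordinates in the fixed field of `σ` are related by a similarity
with entries in the fixed field. -/
theorem exists_rat_sim [Fintype F] (σ : RingAut F) (v z : Fin m ⊕ Fin m → F)
    (hv : ∀ i, σ (v i) = v i) (hz : ∀ i, σ (z i) = z i)
    (hQv : plusQF m F v ≠ 0) (hQz : plusQF m F z ≠ 0) :
    ∃ (K₀ : Matrix (Fin m ⊕ Fin m) (Fin m ⊕ Fin m) F) (c : F), IsUnit K₀.det ∧ c ≠ 0 ∧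
      (∀ x, plusQF m F (K₀ *ᵥ x) = c * plusQF m F x) ∧ K₀.map σ = K₀ ∧ K₀ *ᵥ v = z := by
  classical
  haveI : Fintype ↥(fixF σ) := Fintype.ofFinite _
  obtain ⟨v₀, hv₀⟩ : ∃ v₀ : Fin m ⊕ Fin m → ↥(fixF σ), emb σ v₀ = v :=
    ⟨fun i => ⟨v i, (mem_fixF σ).mpr (hv i)⟩, rfl⟩
  obtain ⟨z₀, hz₀⟩ : ∃ z₀ : Fin m ⊕ Fin m → ↥(fixF σ), emb σ z₀ = z :=
    ⟨fun i => ⟨z i, (mem_fixF σ).mpr (hz i)⟩, rfl⟩
  subst hv₀ hz₀
  rw [plus_quad_emb] at hQv hQz
  have hQv' : plusQF m ↥(fixF σ) v₀ ≠ 0 := fun h => hQv (by rw [h]; rfl)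
  have hQz' : plusQF m ↥(fixF σ) z₀ ≠ 0 := fun h => hQz (by rw [h]; rfl)
  obtain ⟨c₀, hc₀⟩ : ∃ c₀ : ↥(fixF σ),
      c₀ = plusQF m ↥(fixF σ) z₀ / plusQF m ↥(fixF σ) v₀ := ⟨_, rfl⟩
  have hc₀0 : c₀ ≠ 0 := by rw [hc₀]; exact div_ne_zero hQz' hQv'
  obtain ⟨D, hD⟩ : ∃ D : Matrix (Fin m ⊕ Fin m) (Fin m ⊕ Fin m) ↥(fixF σ),
      D = Matrix.diagonal (Sum.elim (fun _ : Fin m => c₀) (fun _ : Fin m => (1 : ↥(fixF σ)))) :=
    ⟨_, rfl⟩
  have hDsim : ∀ x, plusQF m ↥(fixF σ) (D *ᵥ x) = c₀ * plusQF m ↥(fixF σ) x := by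
    intro x
    have h := plus_diag_sim m c₀ x
    rw [← plusQF_coe] at h
    rw [hD]
    exact h
  have hDdet : IsUnit D.det := by
    rw [hD, plus_diag_det]
    exact (pow_ne_zero _ hc₀0).isUnit
  obtain ⟨g, hg1, hg2⟩ := Cfsg.Agent.Lib.Helper43.exists_iso_map_vec (plusQF m ↥(fixF σ))
    (plusQF_nondegenerate m ↥(fixF σ)) (D *ᵥ v₀) z₀
    (by rw [hDsim]; exact mul_ne_zero hc₀0 hQv')
    (by rw [hDsim, hc₀]; field_simp)
  obtain ⟨G, hG⟩ : ∃ G : Matrix (Fin m ⊕ Fin m) (Fin m ⊕ Fin m) ↥(fixF σ),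
      G = LinearMap.toMatrix' (g : (Fin m ⊕ Fin m → ↥(fixF σ)) →ₗ[↥(fixF σ)]
        (Fin m ⊕ Fin m → ↥(fixF σ))) := ⟨_, rfl⟩
  have hGv : ∀ x, G *ᵥ x = g x := by
    intro x
    rw [hG, ← Matrix.toLin'_apply, Matrix.toLin'_toMatrix']
    rfl
  have hGdet : IsUnit G.det := by
    rw [hG, LinearMap.det_toMatrix']
    exact LinearEquiv.isUnit_det' g
  obtain ⟨K₁, hK₁⟩ : ∃ K₁ : Matrix (Fin m ⊕ Fin m) (Fin m ⊕ Fin m) ↥(fixF σ), K₁ = G * D :=
    ⟨_, rfl⟩
  have hK₁sim : ∀ x, plusQF m ↥(fixF σ) (K₁ *ᵥ x) = c₀ * plusQF m ↥(fixF σ) x := by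
    intro x
    rw [hK₁, ← Matrix.mulVec_mulVec, hGv, hg1, hDsim]
  have hK₁v : K₁ *ᵥ v₀ = z₀ := by rw [hK₁, ← Matrix.mulVec_mulVec, hGv, hg2]
  have hK₁det : IsUnit K₁.det := by
    rw [hK₁, Matrix.det_mul]
    exact hGdet.mul hDdet
  obtain ⟨K, hK⟩ : ∃ K : Matrix (Fin m ⊕ Fin m) (Fin m ⊕ Fin m) F,
      K = K₁.map (fixF σ).subtype := ⟨_, rfl⟩
  have hKemb : ∀ x, K *ᵥ emb σ x = emb σ (K₁ *ᵥ x) := by
    intro x
    funext i
    rw [hK]
    exact (RingHom.map_mulVec (fixF σ).subtype K₁ x i).symm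
  have hKσ : K.map σ = K := by
    rw [hK]
    ext a b
    exact (mem_fixF σ).mp (K₁ a b).2
  have hKdet : IsUnit K.det := by
    rw [hK, ← RingHom.mapMatrix_apply, ← RingHom.map_det]
    exact hK₁det.map _
  have hform : (plusQF m F).comp (Matrix.mulVecLin K) = (c₀ : F) • plusQF m F := by
    apply quad_ext_emb σ
    intro x
    rw [QuadraticMap.comp_apply, Matrix.mulVecLin_apply, hKemb, plus_quad_emb, hK₁sim,
      QuadraticMap.smul_apply, plus_quad_emb]
    rfl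
  refine ⟨K, (c₀ : F), hKdet, ?_, ?_, hKσ, ?_⟩
  · intro h
    exact hc₀0 (Subtype.ext h)
  · intro x
    have h := congrArg (fun P : QuadraticForm F (Fin m ⊕ Fin m → F) => P x) hform
    simpa only [QuadraticMap.comp_apply, Matrix.mulVecLin_apply, QuadraticMap.smul_apply,
      smul_eq_mul] using h
  · rw [hKemb, hK₁v]

/-- The semilinear map of a semisimilarity scales the polar form. -/
theorem polar_sact (Y : PS m F) (c : F)
    (hc : ∀ w, plusQF m F (sact Y.1 w) = c * Y.1.right (plusQF m F w))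
    (a b : Fin m ⊕ Fin m → F) :
    QuadraticMap.polar ⇑(plusQF m F) (sact Y.1 a) (sact Y.1 b) =
      c * Y.1.right (QuadraticMap.polar ⇑(plusQF m F) a b) := by
  unfold QuadraticMap.polar
  rw [← sact_add, hc, hc, hc, map_sub, map_sub]
  ring

theorem sact_refl (R : PS m F) (hR1 : R.1.right = 1) (z : Fin m ⊕ Fin m → F)
    (hR2 : (R.1.left : Matrix (Fin m ⊕ Fin m) (Fin m ⊕ Fin m) F) =
      Cfsg.reflectionMatrix ⇑(plusQF m F) z) (w : Fin m ⊕ Fin m → F) :
    sact R.1 w = w - ((plusQF m F z)⁻¹ * QuadraticMap.polar ⇑(plusQF m F) z w) • z := by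
  rw [sact_of_right_eq_one _ hR1, hR2, reflectionMatrix_mulVec]

theorem refl_mul_self (R : PS m F) (hR1 : R.1.right = 1) (z : Fin m ⊕ Fin m → F)
    (hz : plusQF m F z ≠ 0)
    (hR2 : (R.1.left : Matrix (Fin m ⊕ Fin m) (Fin m ⊕ Fin m) F) =
      Cfsg.reflectionMatrix ⇑(plusQF m F) z) : R * R = 1 := by
  apply Subtype.ext
  apply semi_ext
  · rw [Subgroup.coe_mul, mul_left_mat, hR1, map_one_eq, hR2,
      reflectionMatrix_mul_self (plusQF m F) hz]
    rfl
  · rw [Subgroup.coe_mul, SemidirectProduct.mul_right, hR1, mul_one]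
    rfl

/-- A semisimilarity commutes with the reflection in a nonsingular vector it fixes. -/
theorem comm_refl_of_fixed (hm : 1 ≤ m) (Y R : PS m F) (z : Fin m ⊕ Fin m → F)
    (hz : plusQF m F z ≠ 0) (hR1 : R.1.right = 1)
    (hR2 : (R.1.left : Matrix (Fin m ⊕ Fin m) (Fin m ⊕ Fin m) F) =
      Cfsg.reflectionMatrix ⇑(plusQF m F) z) (hfix : sact Y.1 z = z) : Y * R = R * Y := by
  haveI : Nonempty (Fin m ⊕ Fin m) := ⟨Sum.inl ⟨0, hm⟩⟩
  obtain ⟨c, hc⟩ := (mem_semiSim_iff _ Y.1).mp Y.2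
  apply Subtype.ext
  apply sact_ext
  intro w
  rw [Subgroup.coe_mul, Subgroup.coe_mul, sact_mul, sact_mul, sact_refl m R hR1 z hR2,
    sact_refl m R hR1 z hR2, sact_sub, sact_smul, hfix]
  congr 2
  have h1 := hc z
  rw [hfix] at h1
  have h2 := polar_sact m Y c hc z w
  rw [hfix] at h2
  rw [h2, map_mul, map_inv₀]
  have hc0 : (c : F) ≠ 0 := c.ne_zero
  have hσz : Y.1.right (plusQF m F z) ≠ 0 := by
    intro h
    rw [h, mul_zero] at h1
    exact hz h1
  generalize Y.1.right (QuadraticMap.polar ⇑(plusQF m F) z w) = t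
  generalize Y.1.right (plusQF m F z) = q at h1 hσz ⊢
  rw [h1]
  field_simp

/-- The graph-field case: a class-interchanging element of order two in the coset of a
graph-field automorphism is conjugate to it by a similarity. -/
theorem gf_conj [Fintype F] (hm : 3 ≤ m) (Y : PS m F) (hσ2 : orderOf Y.1.right = 2)
    (hY : semiAut ⇑(plusQF m F) Y ^ 2 = 1) (hcls : pcls m Y = -1)
    (v : Fin m ⊕ Fin m → F) (hv : ∀ i, Y.1.right (v i) = v i) (hQv : plusQF m F v ≠ 0)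
    (Γ : PS m F) (hΓ1 : Γ.1.right = 1)
    (hΓ2 : (Γ.1.left : Matrix (Fin m ⊕ Fin m) (Fin m ⊕ Fin m) F) =
      Cfsg.reflectionMatrix ⇑(plusQF m F) v) :
    ∃ k : PS m F, k.1.right = 1 ∧ semiAut ⇑(plusQF m F) Y =
      semiAut ⇑(plusQF m F) k * semiAut ⇑(plusQF m F) (Γ * fld m Y.1.right) *
        (semiAut ⇑(plusQF m F) k)⁻¹ := by
  have hm1 : 1 ≤ m := by omega
  haveI : Nonempty (Fin m ⊕ Fin m) := ⟨Sum.inl ⟨0, hm1⟩⟩
  obtain ⟨Y', h1, h2, h3, h4⟩ := normalize m hm Y 2 hσ2 hY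
  obtain ⟨σ, hσdef⟩ : ∃ σ : RingAut F, σ = Y.1.right := ⟨_, rfl⟩
  rw [← hσdef] at h1 hσ2 hv ⊢
  have hy2 : Y'.1 ^ 2 = 1 := by
    have h := congrArg Subtype.val h2
    rwa [Subgroup.coe_pow] at h
  obtain ⟨z, hz1, hz2⟩ := exists_fixed_nonsing m hm1 Y'.1 2 (by rw [h1]; exact hσ2) two_pos hy2
  obtain ⟨R, hR1, hR2⟩ := exists_refl m z hz2
  have hRR : R * R = 1 := refl_mul_self m R hR1 z hz2 hR2
  have hcomm : Y' * R = R * Y' := comm_refl_of_fixed m hm1 Y' R z hz2 hR1 hR2 hz1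
  have hRY2 : (R * Y') ^ 2 = 1 := by
    rw [pow_two, mul_assoc, ← mul_assoc Y', hcomm, mul_assoc, ← mul_assoc, hRR, one_mul,
      ← pow_two, h2]
  have hRYr : (R * Y').1.right = σ := by
    rw [Subgroup.coe_mul, SemidirectProduct.mul_right, hR1, one_mul, h1]
  have hRYc : pcls m (R * Y') = 1 := by
    rw [map_mul, pcls_refl m R hR1 z hz2 hR2, h4, hcls]
    simp
  obtain ⟨k, hk1, hk2⟩ := fc_core m hm1 (R * Y') 2 (by rw [hRYr]; exact hσ2) two_pos hRY2 hRYc
  rw [hRYr] at hk2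
  obtain ⟨z', hz'⟩ : ∃ z' : Fin m ⊕ Fin m → F, sact k.1 z' = z :=
    ⟨sact k.1⁻¹ z, sact_sact_inv _ _⟩
  obtain ⟨ck, hck⟩ := (mem_semiSim_iff _ k.1).mp k.2
  have hQz' : plusQF m F z' ≠ 0 := by
    intro h
    have h5 := hck z'
    rw [hz', hk1, h] at h5
    apply hz2
    rw [h5, map_zero, mul_zero]
  have hσz' : (fun i => σ (z' i)) = -z' := by
    apply sact_injective k.1
    have h5 := congrArg (fun x : PS m F => sact x.1 z') hk2
    simp only [Subgroup.coe_mul, sact_mul] at h5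
    rw [hz', hz1, sact_fld] at h5
    rw [← h5, sact_neg, hz', sact_refl m R hR1 z hR2]
    have hpz : (plusQF m F z)⁻¹ * QuadraticMap.polar ⇑(plusQF m F) z z = 2 := by
      rw [QuadraticMap.polar_self]
      simp only [nsmul_eq_mul, Nat.cast_ofNat]
      field_simp
    rw [hpz]
    module
  have hσ1 : σ ≠ 1 := by
    intro h
    rw [h, orderOf_one] at hσ2
    omega
  obtain ⟨x₀, hx₀⟩ : ∃ x₀ : F, σ x₀ ≠ x₀ := by
    by_contra hcon
    push Not at hcon
    exact hσ1 (RingEquiv.ext hcon)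
  obtain ⟨d, hd⟩ : ∃ d : F, d = x₀ - σ x₀ := ⟨_, rfl⟩
  have hd0 : d ≠ 0 := by
    rw [hd]
    exact sub_ne_zero.mpr (Ne.symm hx₀)
  have hσσ : ∀ t : F, σ (σ t) = t := by
    intro t
    have h5 : σ ^ 2 = 1 := by
      rw [← hσ2]
      exact pow_orderOf_eq_one σ
    have h6 := congrArg (fun τ : RingAut F => τ t) h5
    rwa [pow_two] at h6
  have hσd : σ d = -d := by
    rw [hd, map_sub, hσσ]
    ring
  have hz''fix : ∀ i, σ ((d • z') i) = (d • z') i := by
    intro i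
    have h5 := congrFun hσz' i
    simp only [Pi.smul_apply, smul_eq_mul, map_mul, Pi.neg_apply] at h5 ⊢
    rw [h5, hσd]
    ring
  have hQz'' : plusQF m F (d • z') ≠ 0 := by
    rw [QuadraticMap.map_smul]
    exact smul_ne_zero (mul_ne_zero hd0 hd0) hQz'
  obtain ⟨K₀, c₀, hK₀det, hc₀, hK₀sim, hK₀σ, hK₀v⟩ :=
    exists_rat_sim m σ v (d • z') hv hz''fix hQv hQz''
  obtain ⟨k₀, hk₀1, hk₀2⟩ := exists_lin m K₀ hK₀det c₀ hc₀ hK₀sim
  have h8 : k₀ * fld m σ = fld m σ * k₀ := by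
    apply Subtype.ext
    apply semi_ext
    · rw [Subgroup.coe_mul, Subgroup.coe_mul, mul_left_mat, mul_left_mat, hk₀1, hk₀2, fld_left,
        fld_right, map_one_eq, Matrix.mul_one, Matrix.one_mul, hK₀σ]
    · rw [Subgroup.coe_mul, Subgroup.coe_mul, SemidirectProduct.mul_right,
        SemidirectProduct.mul_right, hk₀1, fld_right, one_mul, mul_one]
  have hkk : ((k * k₀).1.left : Matrix (Fin m ⊕ Fin m) (Fin m ⊕ Fin m) F) =
      (k.1.left : Matrix _ _ F) * K₀ := by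
    rw [Subgroup.coe_mul, mul_left_mat, hk1, map_one_eq, hk₀2]
  have hkkr : (k * k₀).1.right = 1 := by
    rw [Subgroup.coe_mul, SemidirectProduct.mul_right, hk1, hk₀1, one_mul]
  have h9 : R * (k * k₀) = (k * k₀) * Γ := by
    apply Subtype.ext
    apply semi_ext
    · rw [Subgroup.coe_mul _ R (k * k₀), Subgroup.coe_mul _ (k * k₀) Γ, mul_left_mat,
        mul_left_mat, hR1, hkkr, map_one_eq, map_one_eq, hR2, hΓ2, hkk]
      obtain ⟨Kk, hKk⟩ : ∃ Kk : Matrix (Fin m ⊕ Fin m) (Fin m ⊕ Fin m) F,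
          Kk = (k.1.left : Matrix _ _ F) := ⟨_, rfl⟩
      rw [← hKk]
      have hKksim : ∀ x, plusQF m F (Kk *ᵥ x) = ck * plusQF m F x := by
        intro x
        have h5 := hck x
        rw [sact_of_right_eq_one _ hk1, hk1] at h5
        rw [hKk]
        exact h5
      have hsim : ∀ x, plusQF m F ((Kk * K₀) *ᵥ x) = (ck * c₀) * plusQF m F x := by
        intro x
        rw [← Matrix.mulVec_mulVec, hKksim, hK₀sim, mul_assoc]
      rw [refl_conj_sim (plusQF m F) (Kk * K₀) (ck * c₀) (mul_ne_zero ck.ne_zero hc₀) hsim v]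
      congr 1
      have hkz : Kk *ᵥ z' = z := by
        rw [hKk, ← sact_of_right_eq_one _ hk1]
        exact hz'
      rw [← Matrix.mulVec_mulVec, hK₀v, Matrix.mulVec_smul, hkz,
        reflectionMatrix_smul (plusQF m F) z hd0]
    · rw [Subgroup.coe_mul _ R (k * k₀), Subgroup.coe_mul _ (k * k₀) Γ,
        SemidirectProduct.mul_right, SemidirectProduct.mul_right, hR1, hΓ1, one_mul, mul_one]
  refine ⟨k * k₀, hkkr, ?_⟩
  have e1 : Y' * k = R * (k * fld m σ) := by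
    rw [← hk2, ← mul_assoc, ← mul_assoc, hRR, one_mul]
  have e2 : Y' * (k * k₀) = (k * k₀) * (Γ * fld m σ) := by
    calc Y' * (k * k₀) = (Y' * k) * k₀ := (mul_assoc _ _ _).symm
      _ = R * (k * fld m σ) * k₀ := by rw [e1]
      _ = R * k * (fld m σ * k₀) := by simp only [mul_assoc]
      _ = R * k * (k₀ * fld m σ) := by rw [h8]
      _ = (R * (k * k₀)) * fld m σ := by simp only [mul_assoc]
      _ = (k * k₀) * Γ * fld m σ := by rw [h9]
      _ = (k * k₀) * (Γ * fld m σ) := mul_assoc _ _ _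
  rw [← h3, eq_mul_inv_iff_mul_eq, ← map_mul, ← map_mul, e2]

/-- Adjust the conjugating similarity by a commuting reflection to make it class-preserving. -/
theorem cls_fix (k X₀ R : PS m F) (hk : k.1.right = 1) (hR : R.1.right = 1)
    (hclsR : pcls m R = -1) (hcomm : R * X₀ = X₀ * R) :
    ∃ k' : PS m F, k' ∈ pN m (F := F) ∧
      semiAut ⇑(plusQF m F) k' * semiAut ⇑(plusQF m F) X₀ * (semiAut ⇑(plusQF m F) k')⁻¹ =
        semiAut ⇑(plusQF m F) k * semiAut ⇑(plusQF m F) X₀ * (semiAut ⇑(plusQF m F) k)⁻¹ := by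
  rcases Int.units_eq_one_or (pcls m k) with h | h
  · exact ⟨k, (mem_pN m k).mpr ⟨h, hk⟩, rfl⟩
  · refine ⟨k * R, (mem_pN m _).mpr ⟨?_, ?_⟩, ?_⟩
    · rw [map_mul, h, hclsR]
      simp
    · rw [Subgroup.coe_mul, SemidirectProduct.mul_right, hk, hR, one_mul]
    · rw [← map_mul, ← map_inv, ← map_mul, ← map_mul, ← map_inv, ← map_mul]
      congr 1
      rw [_root_.mul_inv_rev, mul_assoc k R X₀, hcomm]
      group

theorem fld_of_isField (σ : RingAut F) (φ : MulAut (Cfsg.POmega F ⇑(plusQF m F)))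
    (hφ : Cfsg.IsFieldAutPOmegaOf ⇑(plusQF m F) σ φ) :
    φ = semiAut ⇑(plusQF m F) (fld m σ) := by
  apply (induced_iff_semiAut _ (fld m σ) φ).mp
  intro s s' h
  apply hφ s s'
  rw [h]
  have e1 : ((fld m σ).1.left : GL (Fin m ⊕ Fin m) F) = 1 := rfl
  rw [e1, inv_one, Units.val_one, Matrix.one_mul, Matrix.mul_one]
  rfl

theorem order_facts [Fintype F] (hm : 3 ≤ m) (x A : MulAut (Cfsg.POmega F ⇑(plusQF m F)))
    (X₀ : PS m F) (hX₀ : A * x * A⁻¹ = semiAut ⇑(plusQF m F) X₀) {r : ℕ} (hr : r.Prime)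
    (hxr : orderOf x = r) (hσ1 : X₀.1.right ≠ 1) :
    orderOf X₀.1.right = r ∧ pcls m X₀ ^ r = 1 := by
  have h1 : semiAut ⇑(plusQF m F) (X₀ ^ r) = 1 := by
    rw [map_pow, ← hX₀, conj_pow, ← hxr, pow_orderOf_eq_one, mul_one, mul_inv_cancel]
  obtain ⟨h2, -⟩ := ker_scalar m hm (X₀ ^ r) h1
  rw [right_pow] at h2
  haveI : Fact r.Prime := ⟨hr⟩
  refine ⟨orderOf_eq_prime h2 hσ1, ?_⟩
  rw [← map_pow]
  exact pcls_of_ker m hm _ h1

theorem coset_final (x : MulAut (Cfsg.POmega F ⇑(plusQF m F))) (a D X₀ : PS m F)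
    (hX₀ : semiAut ⇑(plusQF m F) a * x * (semiAut ⇑(plusQF m F) a)⁻¹ =
      semiAut ⇑(plusQF m F) X₀)
    (k : PS m F) (hk : k ∈ pN m (F := F))
    (hconj : semiAut ⇑(plusQF m F) (a * D * a⁻¹ * X₀) =
      semiAut ⇑(plusQF m F) k * semiAut ⇑(plusQF m F) X₀ * (semiAut ⇑(plusQF m F) k)⁻¹) :
    ∃ h : MulAut (Cfsg.POmega F ⇑(plusQF m F)),
      h ∈ (pN m (F := F)).map (semiAut ⇑(plusQF m F)) ∧
        semiAut ⇑(plusQF m F) D * x = h * x * h⁻¹ := by
  refine ⟨semiAut ⇑(plusQF m F) (a⁻¹ * k * a), ⟨a⁻¹ * k * a, ?_, rfl⟩, ?_⟩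
  · have h := (pN_normal m (F := F)).conj_mem k hk a⁻¹
    rwa [inv_inv] at h
  · simp only [map_mul, map_inv] at hconj ⊢
    rw [← hX₀] at hconj
    generalize semiAut ⇑(plusQF m F) a = A at *
    generalize semiAut ⇑(plusQF m F) k = K at *
    generalize semiAut ⇑(plusQF m F) D = Dd at *
    have e : Dd * x = A⁻¹ * (A * Dd * A⁻¹ * (A * x * A⁻¹)) * A := by group
    rw [e, hconj]
    group

/-- A nonsingular vector with coordinates in the prime field. -/
theorem exists_prime_nonsing (hm : 1 ≤ m) (σ : RingAut F) :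
    ∃ w : Fin m ⊕ Fin m → F, plusQF m F w ≠ 0 ∧ ∀ i, σ (w i) = w i := by
  refine ⟨Sum.elim (fun i => if i = (⟨0, hm⟩ : Fin m) then 1 else 0)
    (fun i => if i = (⟨0, hm⟩ : Fin m) then 1 else 0), ?_, ?_⟩
  · rw [congrFun (plusQF_coe m F)]
    unfold Cfsg.quadFormPlus
    simp
  · rintro (i | i)
    · simp only [Sum.elim_inl]
      split_ifs <;> simp
    · simp only [Sum.elim_inr]
      split_ifs <;> simp

/-- **Prime order elements in the coset of a field or graph-field automorphism** of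
`PΩ⁺_{2m}(F)` under the inner-diagonal group are conjugate to it. -/
theorem coset_conj_plus [Fintype F] (hm : 5 ≤ m) (Qf : (Fin m ⊕ Fin m → F) → F)
    (hQf : ⇑(plusQF m F) = Qf) (x δ : MulAut (Cfsg.POmega F Qf))
    (hx : (∃ (α φ : MulAut (Cfsg.POmega F Qf)) (σ : F ≃+* F), σ ≠ RingEquiv.refl F ∧
        Cfsg.IsFieldAutPOmegaOf Qf σ φ ∧ α * x * α⁻¹ = φ) ∨
      (∃ (α γ φ : MulAut (Cfsg.POmega F Qf)) (σ : F ≃+* F) (v : Fin m ⊕ Fin m → F)
          (rr : GL (Fin m ⊕ Fin m) F),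
        σ ≠ RingEquiv.refl F ∧ Qf v ≠ 0 ∧ (∀ i, σ (v i) = v i) ∧
        (rr : Matrix (Fin m ⊕ Fin m) (Fin m ⊕ Fin m) F) = Cfsg.reflectionMatrix Qf v ∧
        Cfsg.IsInducedBySemilinearPOmega Qf rr (RingEquiv.refl F) γ ∧
        Cfsg.IsFieldAutPOmegaOf Qf σ φ ∧ α * x * α⁻¹ = γ * φ))
    {r : ℕ} (hr : r.Prime) (hxr : orderOf x = r)
    (hδ : δ ∈ Subgroup.closure {β : MulAut (Cfsg.POmega F Qf) | ∃ g : GL (Fin m ⊕ Fin m) F,
        g ∈ Cfsg.Geo.quadSimilarityGroup (F := F) Qf ∧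
        Cfsg.PreservesSingularClasses Qf (g : Matrix (Fin m ⊕ Fin m) (Fin m ⊕ Fin m) F) ∧
        Cfsg.IsInducedBySemilinearPOmega Qf g (RingEquiv.refl F) β})
    (hord : orderOf (δ * x) = r) :
    ∃ h : MulAut (Cfsg.POmega F Qf),
      h ∈ Subgroup.closure {β : MulAut (Cfsg.POmega F Qf) | ∃ g : GL (Fin m ⊕ Fin m) F,
        g ∈ Cfsg.Geo.quadSimilarityGroup (F := F) Qf ∧
        Cfsg.PreservesSingularClasses Qf (g : Matrix (Fin m ⊕ Fin m) (Fin m ⊕ Fin m) F) ∧
        Cfsg.IsInducedBySemilinearPOmega Qf g (RingEquiv.refl F) β} ∧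
      δ * x = h * x * h⁻¹ := by
  subst hQf
  have hm3 : 3 ≤ m := by omega
  have hm1 : 1 ≤ m := by omega
  have hAut : Cfsg.gammaPOmega F ⇑(plusQF m F) = ⊤ :=
    gammaPOmega_eq_top (plusQF m F) (plusQF_nondegenerate m F)
      (by simp only [Fintype.card_sum, Fintype.card_fin]; omega)
      (Or.inl (by simp only [Fintype.card_sum, Fintype.card_fin]; omega))
  have hcl := closure_eq_map (plusQF m F) (plusQF_nondegenerate m F) m (finrank_plus m F)
    (stdE m F) (stdE_isMTS m F)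
  rw [hcl] at hδ ⊢
  obtain ⟨D, hD, rfl⟩ := hδ
  rcases hx with ⟨α, φ, σ, hσ1, hφ, hconj⟩ |
    ⟨α, γ, φ, σ, v, rr, hσ1, hQv, hv, hrr, hγ, hφ, hconj⟩
  · obtain ⟨a, rfl⟩ := semiAut_surjective _ hAut α
    have hφ' : φ = semiAut ⇑(plusQF m F) (fld m σ) := fld_of_isField m σ φ hφ
    subst hφ'
    obtain ⟨ho, -⟩ := order_facts m hm3 x (semiAut ⇑(plusQF m F) a) (fld m σ) hconj hr hxr hσ1
    have hDa : a * D * a⁻¹ ∈ pN m (F := F) := (pN_normal m).conj_mem D hD a
    obtain ⟨hDa1, hDa2⟩ := (mem_pN m _).mp hDa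
    have hYr : (a * D * a⁻¹ * fld m σ).1.right = σ := by
      rw [Subgroup.coe_mul, SemidirectProduct.mul_right, hDa2, one_mul]
      rfl
    have hYo : semiAut ⇑(plusQF m F) (a * D * a⁻¹ * fld m σ) ^ r = 1 := by
      have e : semiAut ⇑(plusQF m F) (a * D * a⁻¹ * fld m σ) =
          semiAut ⇑(plusQF m F) a * (semiAut ⇑(plusQF m F) D * x) *
            (semiAut ⇑(plusQF m F) a)⁻¹ := by
        rw [map_mul, ← hconj]
        simp only [map_mul, map_inv]
        group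
      rw [e, conj_pow, ← hord, pow_orderOf_eq_one, mul_one, mul_inv_cancel]
    have hYc : pcls m (a * D * a⁻¹ * fld m σ) = 1 := by
      rw [map_mul, hDa1, pcls_fld, one_mul]
    obtain ⟨k, hk1, hk2⟩ := field_conj m hm3 _ r (by rw [hYr]; exact ho) hr.pos hYo hYc
    rw [hYr] at hk2
    obtain ⟨w, hw1, hw2⟩ := exists_prime_nonsing m hm1 σ
    obtain ⟨R, hR1, hR2⟩ := exists_refl m w hw1
    obtain ⟨k', hk', hk'2⟩ := cls_fix m k (fld m σ) R hk1 hR1 (pcls_refl m R hR1 w hw1 hR2)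
      (comm_refl_of_fixed m hm1 (fld m σ) R w hw1 hR1 hR2
        (by rw [sact_fld]; exact funext hw2)).symm
    exact coset_final m x a D (fld m σ) hconj k' hk' (by rw [hk2, hk'2])
  · obtain ⟨a, rfl⟩ := semiAut_surjective _ hAut α
    have hφ' : φ = semiAut ⇑(plusQF m F) (fld m σ) := fld_of_isField m σ φ hφ
    obtain ⟨Γ, hΓ1, hΓ2⟩ := exists_refl m v hQv
    have hγ' : γ = semiAut ⇑(plusQF m F) Γ := by
      apply (induced_iff_semiAut _ Γ γ).mp
      have e1 : Γ.1.left = rr := Units.ext (hΓ2.trans hrr.symm)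
      rw [e1, hΓ1]
      exact hγ
    subst hφ' hγ'
    rw [← map_mul] at hconj
    have hXr : (Γ * fld m σ).1.right = σ := by
      rw [Subgroup.coe_mul, SemidirectProduct.mul_right, hΓ1, one_mul]
      rfl
    obtain ⟨ho, hc⟩ := order_facts m hm3 x (semiAut ⇑(plusQF m F) a) (Γ * fld m σ) hconj hr hxr
      (by rw [hXr]; exact hσ1)
    rw [hXr] at ho
    have hXc : pcls m (Γ * fld m σ) = -1 := by
      rw [map_mul, pcls_refl m Γ hΓ1 v hQv hΓ2, pcls_fld, mul_one]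
    have hr2 : r = 2 := by
      rw [hXc] at hc
      have hev : Even r := (neg_one_pow_eq_one_iff_even (by decide)).mp hc
      exact (Nat.Prime.even_iff hr).mp hev
    subst hr2
    have hDa : a * D * a⁻¹ ∈ pN m (F := F) := (pN_normal m).conj_mem D hD a
    obtain ⟨hDa1, hDa2⟩ := (mem_pN m _).mp hDa
    have hYr : (a * D * a⁻¹ * (Γ * fld m σ)).1.right = σ := by
      rw [Subgroup.coe_mul _ (a * D * a⁻¹) (Γ * fld m σ), SemidirectProduct.mul_right, hDa2,
        one_mul, hXr]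
    have hYo : semiAut ⇑(plusQF m F) (a * D * a⁻¹ * (Γ * fld m σ)) ^ 2 = 1 := by
      have e : semiAut ⇑(plusQF m F) (a * D * a⁻¹ * (Γ * fld m σ)) =
          semiAut ⇑(plusQF m F) a * (semiAut ⇑(plusQF m F) D * x) *
            (semiAut ⇑(plusQF m F) a)⁻¹ := by
        rw [map_mul _ (a * D * a⁻¹) (Γ * fld m σ), ← hconj]
        simp only [map_mul, map_inv]
        group
      rw [e, conj_pow, ← hord, pow_orderOf_eq_one, mul_one, mul_inv_cancel]
    have hYc : pcls m (a * D * a⁻¹ * (Γ * fld m σ)) = -1 := by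
      rw [map_mul _ (a * D * a⁻¹) (Γ * fld m σ), hDa1, hXc, one_mul]
    obtain ⟨k, hk1, hk2⟩ := gf_conj m hm3 _ (by rw [hYr]; exact ho) hYo hYc v
      (by rw [hYr]; exact hv) hQv Γ hΓ1 hΓ2
    rw [hYr] at hk2
    have hcf : Γ * fld m σ = fld m σ * Γ :=
      (comm_refl_of_fixed m hm1 (fld m σ) Γ v hQv hΓ1 hΓ2
        (by rw [sact_fld]; exact funext hv)).symm
    obtain ⟨k', hk', hk'2⟩ := cls_fix m k (Γ * fld m σ) Γ hk1 hΓ1
      (pcls_refl m Γ hΓ1 v hQv hΓ2) (by rw [mul_assoc, ← hcf])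
    exact coset_final m x a D (Γ * fld m σ) hconj k' hk' (by rw [hk2, hk'2])

end plus

end Cfsg.Agent.Lib.Helper8.PlusCoset
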