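import Mathlib
import Cfsg.Prelude.Def_Classical

set_option autoImplicit false

namespace Cfsg.Agent.Lib.Helper8.O4Plus

open Matrix

abbrev I4 := Fin 2 ⊕ Fin 2

/-- the quadratic form `x₁y₁ + x₂y₂` -/
abbrev Q4 : (I4 → ZMod 2) → ZMod 2 := Cfsg.quadFormPlus 2 (ZMod 2)

abbrev O4 := Cfsg.isometryGroup (ZMod 2) Q4

/-! ### `S₃ ≅ GL₂(2)` -/

def E3 : Matrix (Fin 2) (Fin 3) (ZMod 2) := !![1,0,0;0,1,0]
def F3 : Matrix (Fin 3) (Fin 2) (ZMod 2) := !![1,0;0,1;1,1]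
def ones3 : Fin 3 → ZMod 2 := fun _ => 1
def e2 : Fin 3 → ZMod 2 := ![0,0,1]

def P3 (σ : Equiv.Perm (Fin 3)) : Matrix (Fin 3) (Fin 3) (ZMod 2) := Matrix.permMatrixHom σ

theorem F3_E3 : F3 * E3 = 1 + vecMulVec e2 ones3 := by decide
theorem E3_F3 : E3 * F3 = 1 := by decide
theorem ones_F3 : ones3 ᵥ* F3 = 0 := by decide

theorem ones_P3 (σ : Equiv.Perm (Fin 3)) : ones3 ᵥ* P3 σ = ones3 := by
  unfold P3; rw [Matrix.permMatrixHom_apply, vecMul_permMatrix]; rfl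

theorem P3_mul (σ τ : Equiv.Perm (Fin 3)) : P3 (σ * τ) = P3 σ * P3 τ := map_mul _ _ _

theorem P3_one : P3 1 = 1 := map_one _

def rho (σ : Equiv.Perm (Fin 3)) : Matrix (Fin 2) (Fin 2) (ZMod 2) := E3 * P3 σ * F3

theorem F3_rho (σ : Equiv.Perm (Fin 3)) : F3 * rho σ = P3 σ * F3 := by
  unfold rho
  rw [Matrix.mul_assoc E3, ← Matrix.mul_assoc F3, F3_E3, Matrix.add_mul, Matrix.one_mul,
    vecMulVec_mul, ← vecMul_vecMul, ones_P3, ones_F3]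
  have : vecMulVec e2 (0 : Fin 2 → ZMod 2) = 0 := by
    ext i j; simp [vecMulVec_apply]
  rw [this, add_zero]

theorem rho_mul (σ τ : Equiv.Perm (Fin 3)) : rho (σ * τ) = rho σ * rho τ := by
  have h : rho σ * rho τ = E3 * P3 σ * (F3 * rho τ) := by
    unfold rho; simp only [Matrix.mul_assoc]
  rw [h, F3_rho]
  unfold rho
  rw [P3_mul]
  simp only [Matrix.mul_assoc]

theorem rho_one : rho 1 = 1 := by
  unfold rho
  rw [P3_one, Matrix.mul_one, E3_F3]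

theorem F3_rows : ∀ i i' : Fin 3, F3 i 0 = F3 i' 0 → F3 i 1 = F3 i' 1 → i = i' := by decide

theorem rho_inj (σ : Equiv.Perm (Fin 3)) (h : rho σ = 1) : σ = 1 := by
  have h1 := F3_rho σ
  rw [h, Matrix.mul_one] at h1
  unfold P3 at h1
  rw [Matrix.permMatrixHom_apply, PEquiv.toMatrix_toPEquiv_mul] at h1
  have h2 : σ⁻¹ = 1 := by
    ext i
    have := F3_rows (σ⁻¹ i) i (congrFun (congrFun h1 i) 0).symm (congrFun (congrFun h1 i) 1).symm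
    rw [this]
    rfl
  exact inv_eq_one.1 h2

def rhoHom : Equiv.Perm (Fin 3) →* Matrix (Fin 2) (Fin 2) (ZMod 2) where
  toFun := rho
  map_one' := rho_one
  map_mul' := rho_mul

theorem det_rho (σ : Equiv.Perm (Fin 3)) : rho σ 0 0 * rho σ 1 1 + rho σ 0 1 * rho σ 1 0 = 1 := by
  have h1 : rho σ * rho σ⁻¹ = 1 := by rw [← rho_mul, mul_inv_cancel, rho_one]
  have h2 := congrArg Matrix.det h1
  rw [Matrix.det_mul, Matrix.det_one, Matrix.det_fin_two] at h2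
  have h3 : ∀ x y : ZMod 2, x * y = 1 → x = 1 := by decide
  have h4 := h3 _ _ h2
  have hneg : ∀ a b : ZMod 2, a - b = a + b := by decide
  rw [hneg] at h4
  exact h4

/-! ### the two commuting copies of `GL₂(2)` -/

def mk2 (a b c d : ZMod 2) : Matrix (Fin 2) (Fin 2) (ZMod 2) := !![a, b; c, d]

theorem eta2 (g : Matrix (Fin 2) (Fin 2) (ZMod 2)) : g = mk2 (g 0 0) (g 0 1) (g 1 0) (g 1 1) :=
  Matrix.eta_fin_two g

def vec4 (x1 x2 y1 y2 : ZMod 2) : I4 → ZMod 2 := Sum.elim ![x1, x2] ![y1, y2]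

theorem eta4 (v : I4 → ZMod 2) :
    v = vec4 (v (Sum.inl 0)) (v (Sum.inl 1)) (v (Sum.inr 0)) (v (Sum.inr 1)) := by
  funext i
  rcases i with i | i <;> fin_cases i <;> rfl

def Sm : Matrix (Fin 2) (Fin 2) (ZMod 2) := !![0, 1; 1, 0]

/-- left multiplication by `g` on `M₂(F₂)` in the coordinates `(a, b, d, c)` -/
def Lmat (g : Matrix (Fin 2) (Fin 2) (ZMod 2)) : Matrix I4 I4 (ZMod 2) :=
  fromBlocks (g 0 0 • 1) (g 0 1 • Sm) (g 1 0 • Sm) (g 1 1 • 1)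

/-- right multiplication by `hᵀ` -/
def Rmat (h : Matrix (Fin 2) (Fin 2) (ZMod 2)) : Matrix I4 I4 (ZMod 2) :=
  fromBlocks h 0 0 (Sm * h * Sm)

/-- transposition -/
def Tmat : Matrix I4 I4 (ZMod 2) :=
  fromBlocks !![1, 0; 0, 0] !![0, 0; 0, 1] !![0, 0; 0, 1] !![1, 0; 0, 0]

theorem Lmat_one : Lmat 1 = 1 := by decide
theorem Rmat_one : Rmat 1 = 1 := by decide
theorem Tmat_sq : Tmat * Tmat = 1 := by decide

theorem Lmat_mul_aux : ∀ a b c d a' b' c' d' : ZMod 2,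
    Lmat (mk2 a b c d * mk2 a' b' c' d') = Lmat (mk2 a b c d) * Lmat (mk2 a' b' c' d') := by
  decide

theorem Lmat_mul (g g' : Matrix (Fin 2) (Fin 2) (ZMod 2)) : Lmat (g * g') = Lmat g * Lmat g' := by
  rw [eta2 g, eta2 g']; exact Lmat_mul_aux _ _ _ _ _ _ _ _

theorem Rmat_mul_aux : ∀ a b c d a' b' c' d' : ZMod 2,
    Rmat (mk2 a b c d * mk2 a' b' c' d') = Rmat (mk2 a b c d) * Rmat (mk2 a' b' c' d') := by
  decide

theorem Rmat_mul (g g' : Matrix (Fin 2) (Fin 2) (ZMod 2)) : Rmat (g * g') = Rmat g * Rmat g' := by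
  rw [eta2 g, eta2 g']; exact Rmat_mul_aux _ _ _ _ _ _ _ _

theorem LR_comm_aux : ∀ a b c d a' b' c' d' : ZMod 2,
    Lmat (mk2 a b c d) * Rmat (mk2 a' b' c' d') = Rmat (mk2 a' b' c' d') * Lmat (mk2 a b c d) := by
  decide

theorem LR_comm (g h : Matrix (Fin 2) (Fin 2) (ZMod 2)) : Lmat g * Rmat h = Rmat h * Lmat g := by
  rw [eta2 g, eta2 h]; exact LR_comm_aux _ _ _ _ _ _ _ _

theorem TLT_aux : ∀ a b c d : ZMod 2, Tmat * Lmat (mk2 a b c d) * Tmat = Rmat (mk2 a b c d) := by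
  decide

theorem TLT (g : Matrix (Fin 2) (Fin 2) (ZMod 2)) : Tmat * Lmat g * Tmat = Rmat g := by
  rw [eta2 g]; exact TLT_aux _ _ _ _

theorem L_eq_R_aux : ∀ a b c d a' b' c' d' : ZMod 2, a * d + b * c = 1 →
    Lmat (mk2 a b c d) = Rmat (mk2 a' b' c' d') → Lmat (mk2 a b c d) = 1 := by
  decide

theorem LR_ne_T_aux : ∀ a b c d a' b' c' d' : ZMod 2,
    Lmat (mk2 a b c d) * Rmat (mk2 a' b' c' d') ≠ Tmat := by
  decide

theorem L_inj_aux : ∀ a b c d : ZMod 2, Lmat (mk2 a b c d) = 1 → mk2 a b c d = 1 := by decide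

theorem R_inj_aux : ∀ a b c d : ZMod 2, Rmat (mk2 a b c d) = 1 → mk2 a b c d = 1 := by decide

theorem L_isom_aux : ∀ a b c d x1 x2 y1 y2 : ZMod 2, a * d + b * c = 1 →
    Q4 (Lmat (mk2 a b c d) *ᵥ vec4 x1 x2 y1 y2) = Q4 (vec4 x1 x2 y1 y2) := by
  decide

theorem R_isom_aux : ∀ a b c d x1 x2 y1 y2 : ZMod 2, a * d + b * c = 1 →
    Q4 (Rmat (mk2 a b c d) *ᵥ vec4 x1 x2 y1 y2) = Q4 (vec4 x1 x2 y1 y2) := by
  decide

theorem T_isom_aux : ∀ x1 x2 y1 y2 : ZMod 2,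
    Q4 (Tmat *ᵥ vec4 x1 x2 y1 y2) = Q4 (vec4 x1 x2 y1 y2) := by
  decide

end Cfsg.Agent.Lib.Helper8.O4Plus
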