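import Mathlib
import Cfsg.Agent.Lib.Helper13.SpParab
import Cfsg.Agent.Lib.Helper8.SympInv
import Cfsg.Agent.Lib.Helper8.UnitaryInv
import Cfsg.Agent.Lib.Helper8.OrthInvClass
import Cfsg.Agent.Lib.Helper8.SpInvCent
import Cfsg.Agent.S0750

set_option autoImplicit false

/-! Centraliser orders of involutions of orthogonal groups in characteristic two: the counting
identity. -/

namespace Cfsg.Agent.Lib.Helper8.OrthInvCent

open Matrix Module

section frames

variable {F : Type*} [Field F] {ι : Type} [Fintype ι] [DecidableEq ι]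

/-- Linearly independent families of pairwise orthogonal vectors with prescribed values of
the quadratic form. -/
def qFrames (Qf : (ι → F) → F) {κ : Type*} (d : κ → F) : Set (κ → ι → F) :=
  {w | LinearIndependent F w ∧ (∀ i j, QuadraticMap.polar Qf (w i) (w j) = 0) ∧
    ∀ i, Qf (w i) = d i}

/-- The value of a quadratic form on a combination of pairwise orthogonal vectors. -/
theorem quad_sum {V : Type*} [AddCommGroup V] [Module F V] (Q : QuadraticForm F V)
    {κ : Type*} (w : κ → V) (hw : ∀ i j, QuadraticMap.polar Q (w i) (w j) = 0) (c : κ → F)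
    (S : Finset κ) : Q (∑ i ∈ S, c i • w i) = ∑ i ∈ S, c i * c i * Q (w i) := by
  classical
  induction S using Finset.induction_on with
  | empty => simp
  | insert a S ha ih =>
    rw [Finset.sum_insert ha, Finset.sum_insert ha, QuadraticMap.map_add (⇑Q), ih,
      QuadraticMap.map_smul, smul_eq_mul]
    have h0 : QuadraticMap.polar Q (c a • w a) (∑ i ∈ S, c i • w i) = 0 := by
      rw [← QuadraticMap.polarBilin_apply_apply, map_sum]
      apply Finset.sum_eq_zero
      intro i _
      rw [QuadraticMap.polarBilin_apply_apply, QuadraticMap.polar_smul_left,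
        QuadraticMap.polar_smul_right, hw, smul_zero, smul_zero]
    rw [h0, add_zero]

theorem gl_mulVec_injective (g : GL ι F) :
    Function.Injective ((g : Matrix ι ι F).mulVecLin) := by
  intro u v h
  have h' : (g : Matrix ι ι F) *ᵥ u = (g : Matrix ι ι F) *ᵥ v := h
  have := congrArg (fun z => ((g⁻¹ : GL ι F) : Matrix ι ι F) *ᵥ z) h'
  simpa [Matrix.mulVec_mulVec] using this

theorem smul_apply' {Qf : (ι → F) → F} {κ : Type*} (A : ↥(Cfsg.isometryGroup F Qf))
    (x : κ → ι → F) (i : κ) :
    (A • x) i = ((A : GL ι F) : Matrix ι ι F) *ᵥ x i := rfl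

theorem isom_polar {Qf : (ι → F) → F} (A : ↥(Cfsg.isometryGroup F Qf)) (u v : ι → F) :
    QuadraticMap.polar Qf (((A : GL ι F) : Matrix ι ι F) *ᵥ u)
      (((A : GL ι F) : Matrix ι ι F) *ᵥ v) = QuadraticMap.polar Qf u v := by
  unfold QuadraticMap.polar
  rw [← Matrix.mulVec_add]
  have h1 := A.2 (u + v) (u + v)
  have h2 := A.2 u u
  have h3 := A.2 v v
  simp only [Units.coeHom_apply] at h1 h2 h3
  rw [h1, h2, h3]

theorem smul_mem_qFrames {Qf : (ι → F) → F} {κ : Type*} (d : κ → F)
    (A : ↥(Cfsg.isometryGroup F Qf)) (x : κ → ι → F) (hx : x ∈ qFrames Qf d) :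
    A • x ∈ qFrames Qf d := by
  refine ⟨?_, ?_, ?_⟩
  · exact hx.1.map' ((A : GL ι F) : Matrix ι ι F).mulVecLin
      (LinearMap.ker_eq_bot.mpr (gl_mulVec_injective _))
  · intro i j
    rw [smul_apply', smul_apply', isom_polar]
    exact hx.2.1 i j
  · intro i
    rw [smul_apply']
    have h := A.2 (x i) (x i)
    simp only [Units.coeHom_apply] at h
    rw [h]
    exact hx.2.2 i

/-- Witt: the isometry group is transitive on frames with given values. -/
theorem qFrames_transitive [Finite F] (Q : QuadraticForm F (ι → F))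
    (hQ : (QuadraticMap.polarBilin Q).Nondegenerate) {κ : Type} [Fintype κ] (d : κ → F)
    (x y : κ → ι → F) (hx : x ∈ qFrames ⇑Q d) (hy : y ∈ qFrames ⇑Q d) :
    ∃ A : ↥(Cfsg.isometryGroup F ⇑Q), A • x = y := by
  classical
  let bX := Basis.span hx.1
  let bY := Basis.span hy.1
  let φ : Submodule.span F (Set.range x) ≃ₗ[F] Submodule.span F (Set.range y) :=
    bX.equiv bY (Equiv.refl _)
  have h1 : ∀ i, (bX i : ι → F) = x i := fun i => congrArg Subtype.val (Basis.span_apply hx.1 i)
  have h2 : ∀ i, (bY i : ι → F) = y i := fun i => congrArg Subtype.val (Basis.span_apply hy.1 i)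
  have hφ : ∀ a : Submodule.span F (Set.range x), Q (φ a : ι → F) = Q (a : ι → F) := by
    intro a
    have ea : (a : ι → F) = ∑ i, bX.repr a i • x i := by
      conv_lhs => rw [← bX.sum_repr a]
      rw [Submodule.coe_sum]
      apply Finset.sum_congr rfl
      intro i _
      rw [Submodule.coe_smul, h1]
    have eb : (φ a : ι → F) = ∑ i, bX.repr a i • y i := by
      have e0 : φ a = ∑ i, bX.repr a i • bY i := by
        conv_lhs => rw [← bX.sum_repr a]
        rw [map_sum]
        apply Finset.sum_congr rfl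
        intro i _
        rw [map_smul]
        congr 1
        simp [φ]
      rw [e0, Submodule.coe_sum]
      apply Finset.sum_congr rfl
      intro i _
      rw [Submodule.coe_smul, h2]
    rw [ea, eb, quad_sum Q x hx.2.1, quad_sum Q y hy.2.1]
    apply Finset.sum_congr rfl
    intro i _
    rw [hx.2.2, hy.2.2]
  obtain ⟨g, hg1, hg2⟩ := Cfsg.Agent.S0750.result Q hQ _ _ φ hφ
  obtain ⟨G, hG⟩ := OrthInvClass.exists_gl_of_linearEquiv g
  refine ⟨⟨G, fun u _ => ?_⟩, ?_⟩
  · show Q ((G : Matrix ι ι F) *ᵥ u) = Q u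
    rw [hG, hg1]
  · funext i
    rw [smul_apply']
    show (G : Matrix ι ι F) *ᵥ x i = y i
    rw [hG, ← h1, hg2 (bX i)]
    have h3 : φ (bX i) = bY i := by
      simp [φ]
    rw [h3, h2]

end frames

section master

variable {F : Type*} [Field F] [Fintype F] {ι : Type} [Fintype ι] [DecidableEq ι]

/-- The counting identity for the centraliser of an involution `t` of `O(Q)` in characteristic
two: `|C(t)|` times the number of frames (with the diagonal of the model Gram matrix as values
of `Q`) equals the order of the isometry group of the induced symmetric form times `|O(Q)|`. -/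
theorem card_centralizer_mul_orth (h2 : (2 : F) = 0) (Qf : (ι → F) → F)
    (Q : QuadraticForm F (ι → F)) (hQf : ⇑Q = Qf)
    (hQ : (QuadraticMap.polarBilin Q).Nondegenerate) (t : ↥(Cfsg.isometryGroup F Qf))
    (hT2 : ((t : GL ι F) : Matrix ι ι F) * ((t : GL ι F) : Matrix ι ι F) = 1)
    {κ : Type} [Fintype κ] [DecidableEq κ] (B₀ : Matrix κ κ F)
    (hB₀S : ∀ x y, Matrix.toBilin' B₀ x y = Matrix.toBilin' B₀ y x)
    (hB₀N : (Matrix.toBilin' B₀).Nondegenerate)
    (hcard : Fintype.card κ = (((t : GL ι F) : Matrix ι ι F) - 1).rank)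
    (htype : (∀ x, Matrix.toBilin' B₀ x x = 0) ↔
      (∀ v, Qf (v + ((t : GL ι F) : Matrix ι ι F) *ᵥ v) = 0)) :
    Nat.card ↥(Subgroup.centralizer ({t} : Set ↥(Cfsg.isometryGroup F Qf))) *
        Nat.card ↥(qFrames Qf (fun i => B₀ i i)) =
      Nat.card {c : Matrix κ κ F // cᵀ * B₀ * c = B₀} *
        Nat.card ↥(Cfsg.isometryGroup F Qf) := by
  classical
  subst hQf
  obtain ⟨T, hTdef⟩ : ∃ T : Matrix ι ι F, T = ((t : GL ι F) : Matrix ι ι F) := ⟨_, rfl⟩
  rw [← hTdef] at hT2 hcard htype
  have hTQ : ∀ v, Q (T *ᵥ v) = Q v := by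
    intro v
    rw [hTdef]
    exact t.2 v v
  obtain ⟨N, hNdef⟩ : ∃ N : (ι → F) →ₗ[F] (ι → F), N = (T - 1).mulVecLin := ⟨_, rfl⟩
  obtain ⟨B, hBdef⟩ : ∃ B : LinearMap.BilinForm F (ι → F), B = QuadraticMap.polarBilin Q :=
    ⟨_, rfl⟩
  have hBapp : ∀ x y, B x y = QuadraticMap.polar Q x y := by
    intro x y
    rw [hBdef]
    rfl
  have hBN : B.Nondegenerate := by rw [hBdef]; exact hQ
  have hNadj : ∀ x y, B (N x) y = B x (N y) := by
    rw [hNdef, hBdef]
    exact OrthInvClass.polar_selfadjoint Q T hTQ hT2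
  have hN2 : ∀ x, N (N x) = 0 := by
    intro x
    rw [hNdef, Matrix.mulVecLin_apply, Matrix.mulVecLin_apply, Matrix.mulVec_mulVec,
      OrthInvClass.sub_one_sq h2 T hT2, Matrix.zero_mulVec]
  have hNapp : ∀ x, N x = T *ᵥ x - x := by
    intro x
    rw [hNdef, Matrix.mulVecLin_apply, Matrix.sub_mulVec, Matrix.one_mulVec]
  have hsymm : ∀ x y, B x y = B y x := by
    intro x y
    rw [hBapp, hBapp, QuadraticMap.polar_comm]
  have hS : LinearMap.IsSymm B := ⟨fun x y => hsymm x y⟩
  obtain ⟨s, β, hNs, hβ, hβS, hβN⟩ :=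
    UnitaryInv.exists_section_form (RingHom.id F) B hS hBN N hNadj
  have hrank : finrank F (LinearMap.range N) = (T - 1).rank := by
    rw [hNdef]
    rfl
  -- `Q` on the range of `N`
  have hQN : ∀ x, Q (N x) = B x (N x) := by
    intro x
    have h := hTQ x
    have e : T *ᵥ x = x + N x := by rw [hNapp]; abel
    rw [e, QuadraticMap.map_add (⇑Q)] at h
    rw [hBapp]
    linear_combination h - (QuadraticMap.polar (⇑Q) x (N x)) * h2
  have hQβ : ∀ w : LinearMap.range N, Q (w : ι → F) = β w w := by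
    intro w
    obtain ⟨x, hx⟩ := w.2
    rw [hβ]
    have e1 : B (s w) (w : ι → F) = B (N (s w)) x := by
      rw [← hx, hNadj]
    rw [e1, hNs, ← hx, hQN, hsymm]
  -- type of the induced form
  have hβtype : (∀ w, β w w = 0) ↔ (∀ v, Q (v + T *ᵥ v) = 0) := by
    have key : ∀ x, N x = x + T *ᵥ x := by
      intro x
      rw [hNapp]
      funext i
      simp only [Pi.add_apply, Pi.sub_apply]
      linear_combination (-(x i)) * h2
    constructor
    · intro h x
      rw [← key x]
      have := h ⟨N x, LinearMap.mem_range_self N x⟩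
      rw [← hQβ] at this
      exact this
    · intro h w
      obtain ⟨x, hx⟩ := w.2
      rw [← hQβ, ← hx, key x]
      exact h x
  -- a basis of the range with Gram matrix `B₀`
  obtain ⟨φ, hφ⟩ := SympInv.symm_isometry_char2 h2 β (Matrix.toBilin' B₀)
    (fun x y => (hβS.eq y x).symm) hB₀S hβN hB₀N
    (by rw [hrank, Module.finrank_fintype_fun_eq_card, hcard]) (hβtype.trans htype.symm)
  obtain ⟨b, hb⟩ : ∃ b : Basis κ F (LinearMap.range N), ∀ i j, β (b i) (b j) = B₀ i j := by
    refine ⟨(Pi.basisFun F κ).map φ.symm, fun i j => ?_⟩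
    rw [← hφ]
    simp [Matrix.toBilin'_single]
  obtain ⟨x₀, hx₀def⟩ : ∃ x₀ : κ → ι → F, x₀ = fun i => (b i : ι → F) := ⟨_, rfl⟩
  obtain ⟨Tset, hTset⟩ : ∃ Tset : Set (κ → ι → F),
      Tset = {x | ∃ ψ : LinearMap.range N →ₗ[F] LinearMap.range N,
        (∀ w w', β (ψ w) (ψ w') = β w w') ∧ ∀ i, x i = (ψ (b i) : ι → F)} := ⟨_, rfl⟩
  have hψinj : ∀ ψ : LinearMap.range N →ₗ[F] LinearMap.range N,
      (∀ w w', β (ψ w) (ψ w') = β w w') → Function.Injective ψ := by
    intro ψ hψ
    rw [← LinearMap.ker_eq_bot, LinearMap.ker_eq_bot']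
    intro w hw
    apply hβN.1
    intro w'
    rw [← hψ, hw, map_zero, LinearMap.zero_apply]
  have hrange_iso : ∀ w w' : LinearMap.range N,
      QuadraticMap.polar Q (w : ι → F) (w' : ι → F) = 0 := by
    intro w w'
    obtain ⟨y, hy⟩ := w.2
    obtain ⟨y', hy'⟩ := w'.2
    rw [← hy, ← hy', ← hBapp, hNadj, hN2, map_zero]
  have hTfr : ∀ x ∈ Tset, x ∈ qFrames (⇑Q) (fun i => B₀ i i) := by
    intro x hx
    rw [hTset] at hx
    obtain ⟨ψ, hψ, hxψ⟩ := hx
    have hxe : x = fun i => ((ψ (b i) : LinearMap.range N) : ι → F) := funext hxψ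
    refine ⟨?_, ?_, ?_⟩
    · rw [hxe]
      have h1 : LinearIndependent F (fun i => ψ (b i)) :=
        b.linearIndependent.map' ψ (LinearMap.ker_eq_bot.mpr (hψinj ψ hψ))
      exact h1.map' (LinearMap.range N).subtype (Submodule.ker_subtype _)
    · intro i j
      rw [hxψ i, hxψ j]
      exact hrange_iso _ _
    · intro i
      rw [hxψ i, hQβ, hψ, hb]
  have hx₀T : x₀ ∈ Tset := by
    rw [hTset]
    exact ⟨LinearMap.id, fun w w' => rfl, fun i => by rw [hx₀def]; rfl⟩
  have hx₀ : x₀ ∈ qFrames (⇑Q) (fun i => B₀ i i) := hTfr x₀ hx₀T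
  -- the centraliser as a preimage
  have hSc : ∀ A : ↥(Cfsg.isometryGroup F ⇑Q),
      A ∈ Subgroup.centralizer ({t} : Set ↥(Cfsg.isometryGroup F ⇑Q)) ↔ A • x₀ ∈ Tset := by
    intro A
    obtain ⟨AM, hAM⟩ : ∃ AM : Matrix ι ι F, AM = ((A : GL ι F) : Matrix ι ι F) := ⟨_, rfl⟩
    have hAiso : ∀ u v, B (AM.mulVecLin u) (AM.mulVecLin v) = B u v := by
      intro u v
      rw [hBapp, hBapp, Matrix.mulVecLin_apply, Matrix.mulVecLin_apply, hAM]
      exact isom_polar A u v
    have hAx : ∀ i, (A • x₀) i = AM *ᵥ (b i : ι → F) := by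
      intro i
      rw [hx₀def, hAM]
      rfl
    have hAinj : Function.Injective AM.mulVecLin := by
      rw [hAM]
      exact gl_mulVec_injective _
    constructor
    · intro hA
      rw [Subgroup.mem_centralizer_iff] at hA
      have hcomm := hA t (Set.mem_singleton t)
      have hcommM : T * AM = AM * T := by
        rw [hTdef, hAM]
        have := congrArg (fun z : ↥(Cfsg.isometryGroup F ⇑Q) => ((z : GL ι F) : Matrix ι ι F))
          hcomm
        exact this
      have hgN : ∀ v, AM.mulVecLin (N v) = N (AM.mulVecLin v) := by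
        intro v
        rw [hNapp, hNapp, Matrix.mulVecLin_apply, Matrix.mulVecLin_apply, Matrix.mulVec_sub,
          Matrix.mulVec_mulVec, Matrix.mulVec_mulVec, hcommM]
      have hmaps : ∀ w ∈ LinearMap.range N, AM.mulVecLin w ∈ LinearMap.range N := by
        rintro _ ⟨y, rfl⟩
        rw [hgN]
        exact LinearMap.mem_range_self N _
      rw [hTset]
      refine ⟨AM.mulVecLin.restrict hmaps, ?_, ?_⟩
      · intro w w'
        rw [hβ, hβ]
        exact SpInvCent.gram_of_comm B N hNadj s hNs _ hAiso hgN w w' _ _ rfl rfl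
      · intro i
        rw [hAx]
        rfl
    · intro hA
      rw [hTset] at hA
      obtain ⟨ψ, hψ, hxψ⟩ := hA
      have hAψ : ∀ w : LinearMap.range N, AM *ᵥ (w : ι → F) = (ψ w : ι → F) := by
        have e : AM.mulVecLin ∘ₗ (LinearMap.range N).subtype =
            (LinearMap.range N).subtype ∘ₗ ψ := by
          apply b.ext
          intro i
          simp only [LinearMap.coe_comp, Function.comp_apply, Submodule.coe_subtype,
            Matrix.mulVecLin_apply]
          rw [← hAx, hxψ]
        intro w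
        have := congrArg (fun f : LinearMap.range N →ₗ[F] (ι → F) => f w) e
        simpa using this
      obtain ⟨φ', hφ'⟩ : ∃ φ' : LinearMap.range N ≃ₗ[F] LinearMap.range N, ∀ w, φ' w = ψ w :=
        ⟨LinearEquiv.ofInjectiveEndo ψ (hψinj ψ hψ), fun w => rfl⟩
      obtain ⟨g, hg⟩ : ∃ g : (ι → F) ≃ₗ[F] (ι → F), ∀ v, g v = AM *ᵥ v :=
        ⟨LinearEquiv.ofInjectiveEndo AM.mulVecLin hAinj, fun v => rfl⟩
      have hcomm : ∀ y, g (N y) = N (g y) := by
        intro y
        apply SympInv.conj_of_extension B hBN N N hNadj hNadj s s hNs hNs φ' ?_ g ?_ ?_ y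
        · intro w w'
          rw [hφ', hφ', ← hβ, ← hβ]
          exact hψ w w'
        · intro u v
          rw [hg, hg]
          exact hAiso u v
        · intro x
          rw [hg, hφ']
          exact hAψ x
      rw [Subgroup.mem_centralizer_iff]
      intro h hh
      rw [Set.mem_singleton_iff] at hh
      subst hh
      apply Subtype.ext
      apply Units.ext
      change ((h : GL ι F) : Matrix ι ι F) * ((A : GL ι F) : Matrix ι ι F) =
        ((A : GL ι F) : Matrix ι ι F) * ((h : GL ι F) : Matrix ι ι F)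
      rw [← hTdef, ← hAM]
      apply Matrix.mulVec_injective
      funext v
      have := hcomm v
      rw [hg, hg, hNapp, hNapp, Matrix.mulVec_sub] at this
      rw [← Matrix.mulVec_mulVec, ← Matrix.mulVec_mulVec]
      exact (sub_left_injective this).symm
  have hcC : Nat.card ↥(Subgroup.centralizer ({t} : Set ↥(Cfsg.isometryGroup F ⇑Q))) =
      Nat.card {A : ↥(Cfsg.isometryGroup F ⇑Q) // A • x₀ ∈ Tset} :=
    Nat.card_congr (Equiv.subtypeEquivRight hSc)
  have h1 := Cfsg.Agent.Lib.Helper13.card_preimage_orbit (G := ↥(Cfsg.isometryGroup F ⇑Q)) x₀ Tset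
    (fun y hy => qFrames_transitive Q hQ _ x₀ y hx₀ (hTfr y hy))
  have h3 := Cfsg.Agent.Lib.Helper13.card_preimage_orbit (G := ↥(Cfsg.isometryGroup F ⇑Q)) x₀
    (qFrames (⇑Q) (fun i => B₀ i i))
    (fun y hy => qFrames_transitive Q hQ _ x₀ y hx₀ hy)
  have hcG : Nat.card {A : ↥(Cfsg.isometryGroup F ⇑Q) //
      A • x₀ ∈ qFrames (⇑Q) (fun i => B₀ i i)} = Nat.card ↥(Cfsg.isometryGroup F ⇑Q) :=
    Nat.card_congr (Equiv.subtypeUnivEquiv (fun A => smul_mem_qFrames _ A x₀ hx₀))
  -- the set `Tset` is in bijection with the isometries of the induced form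
  have hcT1 : Nat.card ↥Tset = Nat.card {ψ : LinearMap.range N →ₗ[F] LinearMap.range N //
      ∀ w w', β (ψ w) (ψ w') = β w w'} := by
    symm
    apply Nat.card_congr
    refine Equiv.ofBijective (fun ψ => ⟨fun i => (ψ.1 (b i) : ι → F), by
      rw [hTset]
      exact ⟨ψ.1, ψ.2, fun i => rfl⟩⟩) ⟨?_, ?_⟩
    · intro ψ ψ' h
      apply Subtype.ext
      apply b.ext
      intro i
      apply Subtype.ext
      have := congrArg Subtype.val h
      exact congrFun this i
    · rintro ⟨x, hx⟩
      have hx' := hx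
      rw [hTset] at hx'
      obtain ⟨ψ, hψ, hxψ⟩ := hx'
      exact ⟨⟨ψ, hψ⟩, Subtype.ext (funext fun i => (hxψ i).symm)⟩
  have hcT2 : Nat.card {ψ : LinearMap.range N →ₗ[F] LinearMap.range N //
      ∀ w w', β (ψ w) (ψ w') = β w w'} = Nat.card {c : Matrix κ κ F // cᵀ * B₀ * c = B₀} := by
    apply Nat.card_congr
    refine Equiv.subtypeEquiv (LinearMap.toMatrix b b).toEquiv ?_
    intro ψ
    have hB₀ : LinearMap.BilinForm.toMatrix b (β : LinearMap.BilinForm F (LinearMap.range N)) =
        B₀ := by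
      ext i j
      rw [LinearMap.BilinForm.toMatrix_apply, hb]
    have hcomp := LinearMap.BilinForm.toMatrix_comp b b
      (β : LinearMap.BilinForm F (LinearMap.range N)) ψ ψ
    rw [hB₀] at hcomp
    change _ ↔ (LinearMap.toMatrix b b ψ)ᵀ * B₀ * LinearMap.toMatrix b b ψ = B₀
    rw [← hcomp]
    constructor
    · intro h
      have e : LinearMap.BilinForm.comp (β : LinearMap.BilinForm F (LinearMap.range N)) ψ ψ =
          β := by
        ext w w'
        exact h w w'
      rw [e, hB₀]
    · intro h w w'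
      rw [← hB₀] at h
      have e := (LinearMap.BilinForm.toMatrix b).injective h
      have := congrArg (fun γ : LinearMap.BilinForm F (LinearMap.range N) => γ w w') e
      exact this
  rw [hcC, h1, ← hcG, h3, hcT1, hcT2]
  ring

end master

end Cfsg.Agent.Lib.Helper8.OrthInvCent
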