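import Mathlib
import Cfsg.Agent.Lib.Helper45.OrthOrder
import Cfsg.Agent.Lib.Helper8.OrthInvCent

set_option autoImplicit false

/-! Counting frames (linearly independent pairwise orthogonal families with prescribed values
of the quadratic form) in hyperbolic spaces. -/

namespace Cfsg.Agent.Lib.Helper8.OrthFrames

open Matrix Module QuadraticMap Cfsg.Agent.Lib.Helper45 Cfsg.Agent.Lib.Helper8.OrthInvCent

section reindex

variable {F : Type*} [Field F] {ι ι' : Type} [Fintype ι] [DecidableEq ι] [Fintype ι']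
  [DecidableEq ι']

/-- Frame counts are invariant under reindexing the coordinates. -/
theorem card_qFrames_reindex (e : ι ≃ ι') {Q : (ι → F) → F} {Q' : (ι' → F) → F}
    (h : ∀ v, Q' v = Q (fun i => v (e i))) {κ : Type*} (d : κ → F) :
    Nat.card ↥(qFrames Q' d) = Nat.card ↥(qFrames Q d) := by
  have hpol : ∀ v w : ι' → F, polar Q' v w = polar Q (fun i => v (e i)) (fun i => w (e i)) := by
    intro v w
    unfold polar
    rw [h, h, h]
    rfl
  apply Nat.card_congr
  refine
    { toFun := fun w => ⟨fun k i => w.1 k (e i), ?_, ?_, ?_⟩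
      invFun := fun w => ⟨fun k j => w.1 k (e.symm j), ?_, ?_, ?_⟩
      left_inv := fun w => ?_
      right_inv := fun w => ?_ }
  · exact w.2.1.map' (LinearEquiv.funCongrLeft F F e : (ι' → F) →ₗ[F] (ι → F))
      (LinearMap.ker_eq_bot.mpr (LinearEquiv.funCongrLeft F F e).injective)
  · intro i j
    rw [← hpol]
    exact w.2.2.1 i j
  · intro i
    rw [← h]
    exact w.2.2.2 i
  · exact w.2.1.map' (LinearEquiv.funCongrLeft F F e.symm : (ι → F) →ₗ[F] (ι' → F))
      (LinearMap.ker_eq_bot.mpr (LinearEquiv.funCongrLeft F F e.symm).injective)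
  · intro i j
    rw [hpol]
    simpa using w.2.2.1 i j
  · intro i
    rw [h]
    simpa using w.2.2.2 i
  · apply Subtype.ext
    funext k j
    simp
  · apply Subtype.ext
    funext k i
    simp

/-- Frame counts are invariant under reindexing the frame. -/
theorem card_qFrames_index (Q : (ι → F) → F) {κ κ' : Type*} (e : κ ≃ κ') (d : κ → F) :
    Nat.card ↥(qFrames Q d) = Nat.card ↥(qFrames Q (fun k' => d (e.symm k'))) := by
  apply Nat.card_congr
  refine
    { toFun := fun w => ⟨fun k' => w.1 (e.symm k'), ?_, ?_, ?_⟩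
      invFun := fun w => ⟨fun k => w.1 (e k), ?_, ?_, ?_⟩
      left_inv := fun w => ?_
      right_inv := fun w => ?_ }
  · exact w.2.1.comp _ e.symm.injective
  · intro i j
    exact w.2.2.1 _ _
  · intro i
    exact w.2.2.2 _
  · exact w.2.1.comp _ e.injective
  · intro i j
    exact w.2.2.1 _ _
  · intro i
    have := w.2.2.2 (e i)
    simpa using this
  · apply Subtype.ext
    funext k
    simp
  · apply Subtype.ext
    funext k
    simp

end reindex

section cons

variable {F : Type*} [Field F] {ι : Type}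

theorem cons_mem_qFrames_iff (Q : (ι → F) → F) {s : ℕ} (d : Fin (s + 1) → F) (u : ι → F)
    (w : Fin s → ι → F) :
    (Fin.cons u w : Fin (s + 1) → ι → F) ∈ qFrames Q d ↔
      LinearIndependent F (Fin.cons u w : Fin (s + 1) → ι → F) ∧ polar Q u u = 0 ∧
        (∀ j, polar Q u (w j) = 0) ∧ (∀ i j, polar Q (w i) (w j) = 0) ∧ Q u = d 0 ∧
          ∀ j, Q (w j) = d j.succ := by
  unfold qFrames
  simp only [Set.mem_ofPred_eq, Fin.forall_fin_succ, Fin.cons_zero, Fin.cons_succ]
  constructor
  · rintro ⟨h1, ⟨⟨h2, h3⟩, h4⟩, h5, h6⟩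
    exact ⟨h1, h2, h3, fun i => (h4 i).2, h5, h6⟩
  · rintro ⟨h1, h2, h3, h4, h5, h6⟩
    refine ⟨h1, ⟨⟨h2, h3⟩, fun i => ⟨?_, h4 i⟩⟩, h5, h6⟩
    rw [polar_comm]
    exact h3 i

/-- Frames of length `s + 1` as a first vector together with an extension. -/
def qFramesSuccEquiv (Q : (ι → F) → F) {s : ℕ} (d : Fin (s + 1) → F) :
    ↥(qFrames Q d) ≃ Σ u : {u : ι → F // u ≠ 0 ∧ Q u = d 0},
      {w : Fin s → ι → F // (Fin.cons u.1 w : Fin (s + 1) → ι → F) ∈ qFrames Q d} where
  toFun z := ⟨⟨z.1 0, z.2.1.ne_zero 0, z.2.2.2 0⟩, ⟨Fin.tail z.1, by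
    show (Fin.cons (z.1 0) (Fin.tail z.1) : Fin (s + 1) → ι → F) ∈ qFrames Q d
    rw [Fin.cons_self_tail]
    exact z.2⟩⟩
  invFun p := ⟨Fin.cons p.1.1 p.2.1, p.2.2⟩
  left_inv z := by
    apply Subtype.ext
    exact Fin.cons_self_tail z.1
  right_inv p := by
    obtain ⟨⟨u, hu⟩, ⟨w, hw⟩⟩ := p
    have h1 : (Fin.cons u w : Fin (s + 1) → ι → F) 0 = u := rfl
    have h2 : Fin.tail (Fin.cons u w : Fin (s + 1) → ι → F) = w := by
      funext j
      rfl
    exact Cfsg.Agent.Lib.Helper13.sigma_subtype_ext_aux (P := fun u : ι → F => u ≠ 0 ∧ Q u = d 0)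
      (Q := fun u (w : Fin s → ι → F) => (Fin.cons u w : Fin (s + 1) → ι → F) ∈ qFrames Q d)
      _ _ _ _ _ _ _ _ h1 h2

end cons

section fiber

variable {F : Type*} [Field F] [Finite F] {ι : Type} [Finite ι]

theorem isometry_injective (Q : QuadraticForm F (ι → F)) (hND : QND ⇑Q)
    (g : (ι → F) →ₗ[F] (ι → F)) (hg : ∀ x, Q (g x) = Q x) : Function.Injective g := by
  rw [← LinearMap.ker_eq_bot, LinearMap.ker_eq_bot']
  intro x hx
  apply hND x
  · rw [← hg, hx, map_zero]
  · intro w
    have h1 : polar (⇑Q) (g x) (g w) = polar (⇑Q) x w := by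
      unfold polar
      rw [← map_add, hg, hg, hg]
    rw [← h1, hx]
    exact QuadraticMap.polar_zero_left Q (g w)

/-- An isometry carrying `u` to `u'` carries the extensions of `u` to extensions of `u'`. -/
theorem card_fiber_le (Q : QuadraticForm F (ι → F)) (hND : QND ⇑Q) {s : ℕ}
    (d : Fin (s + 1) → F) (u u' : ι → F) (g : (ι → F) →ₗ[F] (ι → F))
    (hg : ∀ x, Q (g x) = Q x) (hgu : g u = u') :
    Nat.card {w : Fin s → ι → F // (Fin.cons u w : Fin (s + 1) → ι → F) ∈ qFrames ⇑Q d} ≤
      Nat.card {w : Fin s → ι → F // (Fin.cons u' w : Fin (s + 1) → ι → F) ∈ qFrames ⇑Q d} := by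
  have hinj := isometry_injective Q hND g hg
  have hpol : ∀ x y, polar (⇑Q) (g x) (g y) = polar (⇑Q) x y := by
    intro x y
    unfold polar
    rw [← map_add, hg, hg, hg]
  have key : ∀ w : Fin s → ι → F, (Fin.cons u w : Fin (s + 1) → ι → F) ∈ qFrames ⇑Q d →
      (Fin.cons u' (fun j => g (w j)) : Fin (s + 1) → ι → F) ∈ qFrames ⇑Q d := by
    intro w hw
    have e : (Fin.cons u' (fun j => g (w j)) : Fin (s + 1) → ι → F) =
        fun i => g ((Fin.cons u w : Fin (s + 1) → ι → F) i) := by
      funext i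
      induction i using Fin.cases with
      | zero => simp [hgu]
      | succ j => simp
    rw [e]
    refine ⟨hw.1.map' g (LinearMap.ker_eq_bot.mpr hinj), fun i j => ?_, fun i => ?_⟩
    · rw [hpol]
      exact hw.2.1 i j
    · rw [hg]
      exact hw.2.2 i
  apply Nat.card_le_card_of_injective (fun w => ⟨fun j => g (w.1 j), key w.1 w.2⟩)
  intro w w' h
  apply Subtype.ext
  funext j
  have := congrFun (congrArg Subtype.val h) j
  exact hinj this

end fiber

section hext

variable {F : Type*} [Field F] [Fintype F] {ι : Type} [Fintype ι] [DecidableEq ι]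

theorem hext_eta (v : Fin 2 ⊕ ι → F) (h : v (Sum.inl 1) = 0) :
    v = Sum.elim ![v (Sum.inl 0), 0] (fun i => v (Sum.inr i)) := by
  funext x
  rcases x with k | i
  · fin_cases k
    · rfl
    · exact h
  · rfl

/-- The extensions of the standard singular vector of a hyperbolic extension. -/
noncomputable def hextFiberEquiv {Q : (ι → F) → F} (hQ0 : Q 0 = 0) {s : ℕ}
    (d : Fin (s + 1) → F) (hd : d 0 = 0) :
    {w : Fin s → (Fin 2 ⊕ ι → F) //
        (Fin.cons hextE w : Fin (s + 1) → (Fin 2 ⊕ ι → F)) ∈ qFrames (hextFun Q) d} ≃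
      (Fin s → F) × ↥(qFrames Q (Fin.tail d)) where
  toFun w := (fun j => w.1 j (Sum.inl 0), ⟨fun j i => w.1 j (Sum.inr i), by
    obtain ⟨w, hw⟩ := w
    rw [cons_mem_qFrames_iff] at hw
    obtain ⟨hli, -, h1, h2, -, h3⟩ := hw
    have hw1 : ∀ j, w j (Sum.inl 1) = 0 := by
      intro j
      rw [← polar_hextE hQ0 (w j)]
      exact h1 j
    refine ⟨?_, ?_, ?_⟩
    · rw [Fintype.linearIndependent_iff] at hli ⊢
      intro c hc
      have key : ∀ i : Fin (s + 1),
          (Fin.cons (-∑ j, c j * w j (Sum.inl 0)) c : Fin (s + 1) → F) i = 0 := hli _ (by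
        rw [Fin.sum_univ_succ]
        simp only [Fin.cons_zero, Fin.cons_succ]
        funext x
        rcases x with k | i
        · fin_cases k
          · simp [hextE]
          · simp [hextE, hw1]
        · have := congrFun hc i
          simp only [Finset.sum_apply, Pi.smul_apply, smul_eq_mul, Pi.zero_apply] at this
          simp [hextE, this])
      intro j
      have := key j.succ
      simpa using this
    · intro i j
      have := h2 i j
      rw [hext_eta (w i) (hw1 i), hext_eta (w j) (hw1 j), polar_hext_elim] at this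
      simpa using this
    · intro j
      have := h3 j
      rw [hext_eta (w j) (hw1 j), hextFun_elim] at this
      simp only [Matrix.cons_val_zero, Matrix.cons_val_one, mul_zero, zero_add] at this
      exact this⟩)
  invFun p := ⟨fun j => Sum.elim ![p.1 j, 0] (p.2.1 j), by
    obtain ⟨a, z, hli, h2, h3⟩ := p
    rw [cons_mem_qFrames_iff]
    refine ⟨?_, ?_, ?_, ?_, ?_, ?_⟩
    · rw [Fintype.linearIndependent_iff] at hli ⊢
      intro g hg
      rw [Fin.sum_univ_succ] at hg
      simp only [Fin.cons_zero, Fin.cons_succ] at hg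
      have hz : ∀ j : Fin s, g j.succ = 0 := by
        apply hli (fun j => g j.succ)
        funext i
        have := congrFun hg (Sum.inr i)
        simpa [hextE] using this
      have h0 : g 0 = 0 := by
        have := congrFun hg (Sum.inl 0)
        simpa [hextE, hz] using this
      intro i
      induction i using Fin.cases with
      | zero => exact h0
      | succ j => exact hz j
    · rw [polar_hextE hQ0]
      rfl
    · intro j
      rw [polar_hextE hQ0]
      rfl
    · intro i j
      rw [polar_hext_elim]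
      simpa using h2 i j
    · rw [hextFun_E hQ0, hd]
    · intro j
      rw [hextFun_elim]
      simp only [Matrix.cons_val_zero, Matrix.cons_val_one, mul_zero, zero_add]
      exact h3 j⟩
  left_inv w := by
    obtain ⟨w, hw⟩ := w
    apply Subtype.ext
    funext j
    have hw' := hw
    rw [cons_mem_qFrames_iff] at hw'
    have hw1 : w j (Sum.inl 1) = 0 := by
      rw [← polar_hextE hQ0 (w j)]
      exact hw'.2.2.1 j
    exact (hext_eta (w j) hw1).symm
  right_inv p := by
    obtain ⟨a, z, hz⟩ := p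
    rfl

end hext

section peel

variable {F : Type*} [Field F] [Fintype F] {ι : Type} [Fintype ι] [DecidableEq ι]

/-- Peeling off a singular first vector in a hyperbolic extension. -/
theorem card_qFrames_hext {Q : (ι → F) → F} (hQ : IsQF Q) (hND : QND Q) {s : ℕ}
    (d : Fin (s + 1) → F) (hd : d 0 = 0) :
    Nat.card ↥(qFrames (hextFun Q) d) =
      Nat.card {u : Fin 2 ⊕ ι → F // u ≠ 0 ∧ hextFun Q u = 0} *
        (Fintype.card F ^ s * Nat.card ↥(qFrames Q (Fin.tail d))) := by
  classical
  have hQ0 := isQF_zero hQ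
  obtain ⟨Q', hQ'⟩ := isQF_hext hQ
  have hfun : ⇑Q' = hextFun Q := funext hQ'
  have hND' : QND (⇑Q') := hfun ▸ qnd_hext hQ0 hND
  have hE0 : hextFun Q (hextE : Fin 2 ⊕ ι → F) = 0 := hextFun_E hQ0
  have hfib : ∀ u : {u : Fin 2 ⊕ ι → F // u ≠ 0 ∧ hextFun Q u = d 0},
      Nat.card {w : Fin s → (Fin 2 ⊕ ι → F) //
        (Fin.cons u.1 w : Fin (s + 1) → (Fin 2 ⊕ ι → F)) ∈ qFrames (hextFun Q) d} =
      Fintype.card F ^ s * Nat.card ↥(qFrames Q (Fin.tail d)) := by
    rintro ⟨u, hu0, hu⟩
    rw [hd] at hu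
    have h1 : Nat.card {w : Fin s → (Fin 2 ⊕ ι → F) //
        (Fin.cons u w : Fin (s + 1) → (Fin 2 ⊕ ι → F)) ∈ qFrames (hextFun Q) d} =
        Nat.card {w : Fin s → (Fin 2 ⊕ ι → F) //
          (Fin.cons hextE w : Fin (s + 1) → (Fin 2 ⊕ ι → F)) ∈ qFrames (hextFun Q) d} := by
      obtain ⟨g₁, hg₁, hg₁u⟩ := exists_isometry_singular Q' hND' u hextE (by rw [hQ', hu]) hu0
        (by rw [hQ', hE0]) hextE_ne_zero
      obtain ⟨g₂, hg₂, hg₂u⟩ := exists_isometry_singular Q' hND' hextE u (by rw [hQ', hE0])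
        hextE_ne_zero (by rw [hQ', hu]) hu0
      have e1 := card_fiber_le Q' hND' d u hextE g₁ hg₁ hg₁u
      have e2 := card_fiber_le Q' hND' d hextE u g₂ hg₂ hg₂u
      rw [hfun] at e1 e2
      exact le_antisymm e1 e2
    show Nat.card {w : Fin s → (Fin 2 ⊕ ι → F) //
        (Fin.cons u w : Fin (s + 1) → (Fin 2 ⊕ ι → F)) ∈ qFrames (hextFun Q) d} = _
    rw [h1, Nat.card_congr (hextFiberEquiv hQ0 d hd), Nat.card_prod, Nat.card_eq_fintype_card,
      Fintype.card_fun, Fintype.card_fin]
  rw [Nat.card_congr (qFramesSuccEquiv (hextFun Q) d), Nat.card_sigma,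
    Finset.sum_congr rfl (fun u _ => hfib u), Finset.sum_const, Finset.card_univ, smul_eq_mul,
    Nat.card_eq_fintype_card]
  congr 1
  rw [← Nat.card_eq_fintype_card]
  apply Nat.card_congr
  apply Equiv.subtypeEquivRight
  intro u
  rw [hd]

end peel

section recursion

variable {F : Type*} [Field F] [Fintype F] [DecidableEq F]

theorem card_nonzero_zeros {ι : Type} [Fintype ι] [DecidableEq ι] (Q : (ι → F) → F)
    (hQ0 : Q 0 = 0) :
    Nat.card {u : ι → F // u ≠ 0 ∧ Q u = 0} =
      (Finset.univ.filter (fun v : ι → F => Q v = 0)).card - 1 := by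
  have h0 : (0 : ι → F) ∈ Finset.univ.filter (fun v : ι → F => Q v = 0) := by
    rw [Finset.mem_filter]
    exact ⟨Finset.mem_univ _, hQ0⟩
  rw [← Finset.card_erase_of_mem h0, Nat.card_eq_fintype_card, Fintype.card_subtype]
  congr 1
  ext u
  simp

variable {κ : Type} [Fintype κ] [DecidableEq κ]

/-- Peeling off a singular first vector in the family `Σ x_i y_i + R(z)`. -/
theorem card_qFrames_qfam_succ {R : (κ → F) → F} (hR : IsQF R) (hND : QND R) (m : ℕ) {s : ℕ}
    (d : Fin (s + 1) → F) (hd : d 0 = 0) :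
    Nat.card ↥(qFrames (qfam (m + 1) R) d) =
      ((Finset.univ.filter (fun v : (Fin (m + 1) ⊕ Fin (m + 1)) ⊕ κ → F =>
          qfam (m + 1) R v = 0)).card - 1) *
        (Fintype.card F ^ s * Nat.card ↥(qFrames (qfam m R) (Fin.tail d))) := by
  have ih := qfam_isQF_qnd hR hND m
  rw [card_qFrames_reindex (sEquiv m κ) (qfam_succ m R) d, card_qFrames_hext ih.1 ih.2 d hd,
    card_nonzero_zeros _ (isQF_zero (isQF_hext ih.1)),
    card_zeros_reindex (sEquiv m κ) (qfam_succ m R)]

/-- The chain identity relating the orders of the isometry groups and the frame counts. -/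
theorem frames_chain {R : (κ → F) → F} (hR : IsQF R) (hND : QND R) (j : ℕ) :
    ∀ (r m : ℕ) (D : Fin (j + r) → F), (∀ i : Fin (j + r), (i : ℕ) < r → D i = 0) →
      (orthSet (qfam (m + r) R)).card *
          Nat.card ↥(qFrames (qfam m R) (fun i : Fin j => D (Fin.addNat i r))) *
          Fintype.card F ^ (∑ i ∈ Finset.range r, (j + i)) =
        Fintype.card F ^ (∑ i ∈ Finset.range r, (2 * (m + i) + Fintype.card κ)) *
          (orthSet (qfam m R)).card * Nat.card ↥(qFrames (qfam (m + r) R) D) := by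
  intro r
  induction r with
  | zero =>
    intro m D _
    simp only [Finset.range_zero, Finset.sum_empty, pow_zero, mul_one, one_mul]
    rfl
  | succ r ih =>
    intro m D hD
    have hd0 : D 0 = 0 := hD 0 (by simp)
    have htail : ∀ i : Fin (j + r), (i : ℕ) < r → Fin.tail D i = 0 := by
      intro i hi
      apply hD
      simp only [Fin.val_succ]
      omega
    have h1 := ih m (Fin.tail D) htail
    have h2 := card_qFrames_qfam_succ hR hND (m + r) (s := j + r) D hd0
    have h3 := card_orthSet_qfam_succ hR hND (m + r)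
    have e : (fun i : Fin j => Fin.tail D (Fin.addNat i r)) =
        (fun i : Fin j => D (Fin.addNat i (r + 1))) := rfl
    rw [e] at h1
    show (orthSet (qfam (m + r + 1) R)).card * _ * _ = _ * _ * Nat.card ↥(qFrames (qfam (m + r + 1) R) D)
    rw [h2, h3, Finset.sum_range_succ, Finset.sum_range_succ,
      pow_add (Fintype.card F) (∑ i ∈ Finset.range r, (j + i)) (j + r),
      pow_add (Fintype.card F) (∑ i ∈ Finset.range r, (2 * (m + i) + Fintype.card κ))
        (2 * (m + r) + Fintype.card κ)]
    generalize (Finset.univ.filter (fun v : (Fin (m + r + 1) ⊕ Fin (m + r + 1)) ⊕ κ → F =>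
      qfam (m + r + 1) R v = 0)).card - 1 = Z at *
    generalize Nat.card ↥(qFrames (qfam m R) (fun i : Fin j => D (Fin.addNat i (r + 1)))) = T0 at *
    generalize Nat.card ↥(qFrames (qfam (m + r) R) (Fin.tail D)) = T1 at *
    generalize (orthSet (qfam (m + r) R)).card = O1 at *
    generalize (orthSet (qfam m R)).card = O0 at *
    generalize Fintype.card F ^ (∑ i ∈ Finset.range r, (j + i)) = qA at *
    generalize Fintype.card F ^ (∑ i ∈ Finset.range r, (2 * (m + i) + Fintype.card κ)) = qB at *
    calc Z * Fintype.card F ^ (2 * (m + r) + Fintype.card κ) * O1 * T0 *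
          (qA * Fintype.card F ^ (j + r))
        = Z * Fintype.card F ^ (2 * (m + r) + Fintype.card κ) * Fintype.card F ^ (j + r) *
            (O1 * T0 * qA) := by ring
      _ = Z * Fintype.card F ^ (2 * (m + r) + Fintype.card κ) * Fintype.card F ^ (j + r) *
            (qB * O0 * T1) := by rw [h1]
      _ = _ := by ring

end recursion

section values

variable {F : Type*} [Field F] [Fintype F] {ι : Type} [Fintype ι] [DecidableEq ι]

/-- In characteristic two every non-zero value of a quadratic form is taken equally often. -/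
theorem card_value_eq (h2 : (2 : F) = 0) (Q : QuadraticForm F (ι → F)) (c : F) (hc : c ≠ 0) :
    Nat.card {v : ι → F // Q v = c} = Nat.card {v : ι → F // Q v = 1} := by
  obtain ⟨a, ha⟩ := SympInv.exists_sqrt_char2 h2 c
  have ha0 : a ≠ 0 := by
    rintro rfl
    exact hc (by rw [← ha, mul_zero])
  symm
  apply Nat.card_congr
  refine
    { toFun := fun v => ⟨a • v.1, by rw [QuadraticMap.map_smul, v.2, smul_eq_mul, mul_one, ha]⟩
      invFun := fun v => ⟨a⁻¹ • v.1, by
        rw [QuadraticMap.map_smul, v.2, smul_eq_mul, ← ha]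
        field_simp⟩
      left_inv := fun v => ?_
      right_inv := fun v => ?_ }
  · apply Subtype.ext
    simp [smul_smul, inv_mul_cancel₀ ha0]
  · apply Subtype.ext
    simp [smul_smul, mul_inv_cancel₀ ha0]

theorem card_value_one (h2 : (2 : F) = 0) (Q : QuadraticForm F (ι → F)) :
    (Fintype.card F - 1) * Nat.card {v : ι → F // Q v = 1} + Nat.card {v : ι → F // Q v = 0} =
      Fintype.card F ^ Fintype.card ι := by
  classical
  have h1 : Fintype.card (ι → F) = ∑ c : F, Nat.card {v : ι → F // Q v = c} := by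
    rw [← Fintype.card_congr (Equiv.sigmaFiberEquiv (fun v : ι → F => Q v)), Fintype.card_sigma]
    apply Finset.sum_congr rfl
    intro c _
    rw [Nat.card_eq_fintype_card]
  rw [Fintype.card_fun] at h1
  rw [h1, ← Finset.add_sum_erase _ _ (Finset.mem_univ (0 : F)), add_comm]
  congr 1
  rw [Finset.sum_congr rfl (g := fun _ => Nat.card {v : ι → F // Q v = 1})
    (fun c hc => card_value_eq h2 Q c (Finset.ne_of_mem_erase hc)), Finset.sum_const,
    Finset.card_erase_of_mem (Finset.mem_univ _), Finset.card_univ, smul_eq_mul]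

/-- Frames of length one with a non-zero value, characteristic two. -/
theorem card_qFrames_single (h2 : (2 : F) = 0) {Q : (ι → F) → F} (hQ : IsQF Q) (c : F)
    (hc : c ≠ 0) :
    Nat.card ↥(qFrames Q (fun _ : Fin 1 => c)) = Nat.card {v : ι → F // Q v = c} := by
  have hQ0 := isQF_zero hQ
  apply Nat.card_congr
  refine
    { toFun := fun w => ⟨w.1 0, w.2.2.2 0⟩
      invFun := fun v => ⟨fun _ => v.1, ?_, ?_, ?_⟩
      left_inv := fun w => ?_
      right_inv := fun v => rfl }
  · rw [linearIndependent_unique_iff]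
    intro h0
    apply hc
    rw [← v.2]
    show Q v.1 = 0
    have : v.1 = 0 := h0
    rw [this, hQ0]
  · intro _ _
    unfold polar
    have e : v.1 + v.1 = 0 := by
      funext i
      simp only [Pi.add_apply, Pi.zero_apply]
      linear_combination (v.1 i) * h2
    rw [e, hQ0]
    linear_combination (-(Q v.1)) * h2
  · intro _
    exact v.2
  · apply Subtype.ext
    funext i
    have : i = 0 := Subsingleton.elim _ _
    rw [this]

end values

section plus

variable {F : Type*} [Field F] [Fintype F] [DecidableEq F]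

theorem card_isometryGroup_plus (m : ℕ) :
    Nat.card ↥(Cfsg.isometryGroup F (Cfsg.quadFormPlus m F)) =
      (orthSet (qfam m (rEmpty : (Empty → F) → F))).card := by
  have hfam := qfam_isQF_qnd (rEmpty_isQF (F := F)) rEmpty_qnd m
  have hQF : IsQF (Cfsg.quadFormPlus m F) :=
    isQF_reindex (Equiv.sumEmpty _ Empty) (plus_eq (F := F) m) hfam.1
  have hND : QND (Cfsg.quadFormPlus m F) :=
    qnd_reindex (Equiv.sumEmpty _ Empty) (plus_eq (F := F) m) hfam.2
  rw [card_isometryGroup_eq hQF hND,
    card_orthSet_reindex (F := F) (Equiv.sumEmpty _ Empty) (plus_eq (F := F) m)]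

theorem card_qFrames_plus (m : ℕ) {κ : Type*} (d : κ → F) :
    Nat.card ↥(qFrames (Cfsg.quadFormPlus m F) d) =
      Nat.card ↥(qFrames (qfam m (rEmpty : (Empty → F) → F)) d) :=
  card_qFrames_reindex (Equiv.sumEmpty _ Empty) (plus_eq (F := F) m) d

/-- The chain identity for totally singular frames of the hyperbolic form. -/
theorem plus_chain_zero (k s : ℕ) {κ : Type} [Fintype κ] (hκ : Fintype.card κ = s) :
    Nat.card ↥(Cfsg.isometryGroup F (Cfsg.quadFormPlus (k + s) F)) *
        Fintype.card F ^ (∑ i ∈ Finset.range s, i) =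
      Fintype.card F ^ (∑ i ∈ Finset.range s, 2 * (k + i)) *
        (orthSet (qfam k (rEmpty : (Empty → F) → F))).card *
        Nat.card ↥(qFrames (Cfsg.quadFormPlus (k + s) F) (fun _ : κ => (0 : F))) := by
  have h := frames_chain (rEmpty_isQF (F := F)) rEmpty_qnd 0 s k (fun _ => 0) (fun _ _ => rfl)
  have h1 : Nat.card ↥(qFrames (qfam k (rEmpty : (Empty → F) → F))
      (fun i : Fin 0 => (0 : F))) = 1 := by
    have : Unique ↥(qFrames (qfam k (rEmpty : (Empty → F) → F)) (fun i : Fin 0 => (0 : F))) :=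
      { default := ⟨fun i => i.elim0, linearIndependent_empty_type, fun i => i.elim0,
          fun i => i.elim0⟩
        uniq := fun z => Subtype.ext (funext fun i => i.elim0) }
    exact Nat.card_unique
  rw [h1, mul_one] at h
  simp only [zero_add, Fintype.card_empty, add_zero] at h
  rw [card_isometryGroup_plus, card_qFrames_plus,
    card_qFrames_index _ (Fintype.equivFinOfCardEq (by omega : Fintype.card κ = 0 + s))]
  exact h

/-- The chain identity for frames with exactly one non-singular vector. -/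
theorem plus_chain_one (h2 : (2 : F) = 0) (k r : ℕ) {κ : Type} [Fintype κ] [DecidableEq κ]
    (hκ : Fintype.card κ = r + 1) (j₀ : κ) :
    Nat.card ↥(Cfsg.isometryGroup F (Cfsg.quadFormPlus (k + r) F)) *
        Nat.card {v : (Fin k ⊕ Fin k) ⊕ Empty → F // qfam k (rEmpty : (Empty → F) → F) v = 1} *
        Fintype.card F ^ (∑ i ∈ Finset.range r, (1 + i)) =
      Fintype.card F ^ (∑ i ∈ Finset.range r, 2 * (k + i)) *
        (orthSet (qfam k (rEmpty : (Empty → F) → F))).card *
        Nat.card ↥(qFrames (Cfsg.quadFormPlus (k + r) F)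
          (fun i : κ => if i = j₀ then (1 : F) else 0)) := by
  have h := frames_chain (rEmpty_isQF (F := F)) rEmpty_qnd 1 r k
    (fun i : Fin (1 + r) => if (i : ℕ) = r then (1 : F) else 0)
    (fun i hi => by rw [if_neg (by omega)])
  have e1 : (fun i : Fin 1 => if ((Fin.addNat i r : Fin (1 + r)) : ℕ) = r then (1 : F) else 0) =
      fun _ => 1 := by
    funext i
    rw [if_pos]
    simp
  rw [e1, card_qFrames_single h2 (qfam_isQF_qnd (rEmpty_isQF (F := F)) rEmpty_qnd k).1 1
    one_ne_zero] at h
  simp only [Fintype.card_empty, add_zero] at h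
  obtain ⟨e₀⟩ : Nonempty (κ ≃ Fin (1 + r)) :=
    ⟨Fintype.equivFinOfCardEq (by omega : Fintype.card κ = 1 + r)⟩
  obtain ⟨e, he⟩ : ∃ e : κ ≃ Fin (1 + r), e j₀ = ⟨r, by omega⟩ :=
    ⟨e₀.trans (Equiv.swap (e₀ j₀) ⟨r, by omega⟩), by simp⟩
  rw [card_isometryGroup_plus, card_qFrames_plus, card_qFrames_index _ e]
  have e2 : (fun k' : Fin (1 + r) => if e.symm k' = j₀ then (1 : F) else 0) =
      fun i : Fin (1 + r) => if (i : ℕ) = r then (1 : F) else 0 := by
    funext i
    have : e.symm i = j₀ ↔ (i : ℕ) = r := by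
      rw [Equiv.symm_apply_eq, he]
      exact Fin.ext_iff
    simp only [this]
  rw [e2]
  exact h

/-- The number of vectors of value one. -/
theorem card_plus_one (h2 : (2 : F) = 0) (k : ℕ) :
    Fintype.card F *
        Nat.card {v : (Fin k ⊕ Fin k) ⊕ Empty → F // qfam k (rEmpty : (Empty → F) → F) v = 1} =
      Fintype.card F ^ k * (Fintype.card F ^ k - 1) := by
  obtain ⟨Q, hQ⟩ := (qfam_isQF_qnd (rEmpty_isQF (F := F)) rEmpty_qnd k).1
  have hfun : ⇑Q = qfam k (rEmpty : (Empty → F) → F) := funext hQ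
  have h1 := card_value_one h2 Q
  rw [hfun] at h1
  have h3 := qfam_zeros_closed (rEmpty : (Empty → F) → F) card_zeros_rEmpty k
  have hq : 1 ≤ Fintype.card F := Fintype.card_pos
  have hqk : 1 ≤ Fintype.card F ^ k := Nat.one_le_pow _ _ hq
  have h4 : Nat.card {v : (Fin k ⊕ Fin k) ⊕ Empty → F // qfam k (rEmpty : (Empty → F) → F) v = 0} =
      (Finset.univ.filter
        (fun v : (Fin k ⊕ Fin k) ⊕ Empty → F => qfam k rEmpty v = 0)).card := by
    rw [Nat.card_eq_fintype_card, Fintype.card_subtype]
  rw [h4] at h1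
  simp only [Fintype.card_sum, Fintype.card_fin, Fintype.card_empty, add_zero] at h1 h3
  generalize Nat.card {v : (Fin k ⊕ Fin k) ⊕ Empty → F //
    qfam k (rEmpty : (Empty → F) → F) v = 1} = N at *
  generalize (Finset.univ.filter
    (fun v : (Fin k ⊕ Fin k) ⊕ Empty → F => qfam k rEmpty v = 0)).card = Z at *
  have hq0 : ((Fintype.card F : ℤ) - 1) ≠ 0 ∨ Fintype.card F = 1 := by
    by_cases h : Fintype.card F = 1
    · exact Or.inr h
    · left
      intro h'
      apply h
      have : (Fintype.card F : ℤ) = 1 := by linarith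
      exact_mod_cast this
  have hcard : 1 < Fintype.card F := Fintype.one_lt_card
  rcases hq0 with hq0 | hq0
  · have h1' : ((Fintype.card F : ℤ) - 1) * N + Z = (Fintype.card F : ℤ) ^ (k + k) := by
      have := congrArg (fun n : ℕ => (n : ℤ)) h1
      push_cast [Nat.cast_sub hq] at this
      exact this
    have key : (Fintype.card F : ℤ) * N =
        (Fintype.card F : ℤ) ^ k * ((Fintype.card F : ℤ) ^ k - 1) := by
      apply mul_left_cancel₀ hq0
      have e1 : (Fintype.card F : ℤ) ^ (k + k) = (Fintype.card F : ℤ) ^ k * (Fintype.card F : ℤ) ^ k := by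
        rw [pow_add]
      have e2 : (Fintype.card F : ℤ) ^ (2 * k) = (Fintype.card F : ℤ) ^ k * (Fintype.card F : ℤ) ^ k := by
        rw [two_mul, pow_add]
      have e3 : (Fintype.card F : ℤ) ^ (k + 1) = (Fintype.card F : ℤ) ^ k * (Fintype.card F : ℤ) := by
        rw [pow_succ]
      rw [e2, e3] at h3
      rw [e1] at h1'
      linear_combination (Fintype.card F : ℤ) * h1' - h3
    zify [hqk]
    exact key
  · omega

end plus

end Cfsg.Agent.Lib.Helper8.OrthFrames
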