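import Mathlib
import Cfsg.Agent.Lib.Helper8.OrthFrames
import Cfsg.Agent.Lib.Helper8.OmegaClass
import Cfsg.Agent.S2594
import Cfsg.Agent.S0245

set_option autoImplicit false

/-! Centraliser orders of involutions of `Ω⁺_2m(q)`, `q` even. -/

namespace Cfsg.Agent.Lib.Helper8.OrthCentFinal

open Matrix Module Cfsg.Agent.Lib.Helper13 Cfsg.Agent.Lib.Helper14 Cfsg.Agent.Lib.Helper44
  Cfsg.Agent.Lib.Helper45 Cfsg.Agent.Lib.Helper8.OrthInvCent Cfsg.Agent.Lib.Helper8.OrthFrames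

section group

variable {G : Type*} [Group G]

/-- The elements of a subgroup commuting with `x`, against the centraliser of `x`, when the
subgroup has index at most two and some element outside it commutes with `x`. -/
theorem card_comm_two [Finite G] (H : Subgroup G) (x r : G)
    (hH : ∀ a b, a ∉ H → b ∉ H → a * b ∈ H) (hr : r ∉ H) (hrx : r * x = x * r) :
    Nat.card ↥(Subgroup.centralizer ({x} : Set G)) =
      2 * Nat.card {g : ↥H // (g : G) * x = x * (g : G)} := by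
  have hrC : r ∈ Subgroup.centralizer ({x} : Set G) := by
    rw [Subgroup.mem_centralizer_iff]
    intro h hh
    rw [Set.mem_singleton_iff] at hh
    rw [hh]
    exact hrx.symm
  have hidx : (H.subgroupOf (Subgroup.centralizer ({x} : Set G))).index = 2 := by
    rw [Subgroup.index_eq_two_iff]
    refine ⟨⟨r, hrC⟩, fun b => ?_⟩
    rw [Subgroup.mem_subgroupOf, Subgroup.mem_subgroupOf]
    by_cases hb : (b : G) ∈ H
    · right
      refine ⟨hb, ?_⟩
      intro hbr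
      apply hr
      have : r = (b : G)⁻¹ * ((b : G) * r) := by group
      rw [this]
      exact H.mul_mem (H.inv_mem hb) hbr
    · left
      exact ⟨hH _ _ hb hr, hb⟩
  have h1 := Subgroup.card_mul_index (H.subgroupOf (Subgroup.centralizer ({x} : Set G)))
  rw [hidx] at h1
  rw [← h1, mul_comm]
  congr 1
  apply Nat.card_congr
  refine
    { toFun := fun c => ⟨⟨c.1.1, c.2⟩, ?_⟩
      invFun := fun g => ⟨⟨g.1.1, ?_⟩, g.1.2⟩
      left_inv := fun c => rfl
      right_inv := fun g => rfl }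
  · have := c.1.2
    rw [Subgroup.mem_centralizer_iff] at this
    exact (this x (Set.mem_singleton x)).symm
  · rw [Subgroup.mem_centralizer_iff]
    intro h hh
    rw [Set.mem_singleton_iff] at hh
    rw [hh]
    exact g.2.symm

theorem card_comm_of_le (H : Subgroup G) (x : G) (h : ∀ g, g * x = x * g → g ∈ H) :
    Nat.card {g : ↥H // (g : G) * x = x * (g : G)} =
      Nat.card ↥(Subgroup.centralizer ({x} : Set G)) := by
  apply Nat.card_congr
  refine
    { toFun := fun g => ⟨g.1.1, ?_⟩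
      invFun := fun c => ⟨⟨c.1, h c.1 ?_⟩, ?_⟩
      left_inv := fun g => rfl
      right_inv := fun c => rfl }
  · rw [Subgroup.mem_centralizer_iff]
    intro h hh
    rw [Set.mem_singleton_iff] at hh
    rw [hh]
    exact g.2.symm
  · have := c.2
    rw [Subgroup.mem_centralizer_iff] at this
    exact (this x (Set.mem_singleton x)).symm
  · have := c.2
    rw [Subgroup.mem_centralizer_iff] at this
    exact (this x (Set.mem_singleton x)).symm

end group

section refl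

variable {ι : Type} [Fintype ι] [DecidableEq ι] {F : Type*} [Field F] [Fintype F]

/-- An isometry fixing a non-singular vector commutes with an isometry outside `Ω`. -/
theorem exists_comm_notMem (h2 : (2 : F) = 0) (Qf : (ι → F) → F)
    (Q : QuadraticForm F (ι → F)) (hQf : ⇑Q = Qf)
    (hQ : (QuadraticMap.polarBilin Q).Nondegenerate)
    (hcard : Fintype.card F ≠ 2 ∨ Fintype.card ι ≠ 4) (t : ↥(Cfsg.isometryGroup F Qf))
    (hfix : ∃ v, Qf v ≠ 0 ∧ ((t : GL ι F) : Matrix ι ι F) *ᵥ v = v) :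
    ∃ r : ↥(Cfsg.isometryGroup F Qf), r ∉ Cfsg.Omega F Qf ∧ r * t = t * r := by
  subst hQf
  obtain ⟨v, hv, htv⟩ := hfix
  obtain ⟨r, hr⟩ : ∃ r, r = reflElt Q hQ v hv := ⟨_, rfl⟩
  have hcomm : t * r * t⁻¹ = r := by
    rw [hr, conj_reflElt Q hQ t v hv]
    apply isom_ext
    rw [reflElt_coe, reflElt_coe, htv]
  refine ⟨r, ?_, ?_⟩
  · rw [OmegaConj.mem_commutator_iff_dickson h2 Q hQ hcard, hr, dickson_reflElt]
    decide
  · rw [mul_inv_eq_iff_eq_mul] at hcomm
    exact hcomm.symm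

end refl

section core

variable {F : Type*} [Field F] [Fintype F]

theorem card_model_pos {κ : Type} [Fintype κ] [DecidableEq κ] (B₀ : Matrix κ κ F) :
    0 < Nat.card {c : Matrix κ κ F // cᵀ * B₀ * c = B₀} := by
  have : Nonempty {c : Matrix κ κ F // cᵀ * B₀ * c = B₀} := ⟨⟨1, by simp⟩⟩
  exact Nat.card_pos

/-- Centraliser in `O⁺`, totally singular commutator space. -/
theorem cent_zero (h2 : (2 : F) = 0) (k s : ℕ)
    (x : ↥(Cfsg.isometryGroup F (Cfsg.quadFormPlus (k + s) F)))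
    (hT2 : ((x : GL (Fin (k + s) ⊕ Fin (k + s)) F) : Matrix (Fin (k + s) ⊕ Fin (k + s)) (Fin (k + s) ⊕ Fin (k + s)) F) * ((x : GL (Fin (k + s) ⊕ Fin (k + s)) F) : Matrix (Fin (k + s) ⊕ Fin (k + s)) (Fin (k + s) ⊕ Fin (k + s)) F) = 1)
    {κ : Type} [Fintype κ] [DecidableEq κ] (B₀ : Matrix κ κ F)
    (hB₀S : ∀ x y, Matrix.toBilin' B₀ x y = Matrix.toBilin' B₀ y x)
    (hB₀N : (Matrix.toBilin' B₀).Nondegenerate)
    (hcard : Fintype.card κ = (((x : GL (Fin (k + s) ⊕ Fin (k + s)) F) : Matrix (Fin (k + s) ⊕ Fin (k + s)) (Fin (k + s) ⊕ Fin (k + s)) F) - 1).rank) (hrank : (((x : GL (Fin (k + s) ⊕ Fin (k + s)) F) : Matrix (Fin (k + s) ⊕ Fin (k + s)) (Fin (k + s) ⊕ Fin (k + s)) F) - 1).rank = s)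
    (htype : (∀ x, Matrix.toBilin' B₀ x x = 0) ↔
      (∀ v, Cfsg.quadFormPlus (k + s) F (v + ((x : GL (Fin (k + s) ⊕ Fin (k + s)) F) : Matrix (Fin (k + s) ⊕ Fin (k + s)) (Fin (k + s) ⊕ Fin (k + s)) F) *ᵥ v) = 0))
    (hdiag : ∀ i, B₀ i i = 0) :
    Nat.card ↥(Subgroup.centralizer
        ({x} : Set ↥(Cfsg.isometryGroup F (Cfsg.quadFormPlus (k + s) F)))) *
        Fintype.card F ^ (∑ i ∈ Finset.range s, i) =
      Nat.card {c : Matrix κ κ F // cᵀ * B₀ * c = B₀} *
        Fintype.card F ^ (∑ i ∈ Finset.range s, 2 * (k + i)) *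
        (orthSet (qfam k (rEmpty : (Empty → F) → F))).card := by
  classical
  have hmaster := card_centralizer_mul_orth h2 _ (plusQF (k + s) F) (plusQF_coe (k + s) F)
    (plusQF_nondegenerate (k + s) F) x hT2 B₀ hB₀S hB₀N hcard htype
  have hd : (fun i => B₀ i i) = fun _ : κ => (0 : F) := funext hdiag
  rw [hd] at hmaster
  have hchain := plus_chain_zero (F := F) k s (κ := κ) (by rw [hcard, hrank])
  have hI := card_model_pos B₀
  have hO : 0 < Nat.card ↥(Cfsg.isometryGroup F (Cfsg.quadFormPlus (k + s) F)) := Nat.card_pos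
  generalize Nat.card ↥(Subgroup.centralizer
    ({x} : Set ↥(Cfsg.isometryGroup F (Cfsg.quadFormPlus (k + s) F)))) = C at *
  generalize Nat.card {c : Matrix κ κ F // cᵀ * B₀ * c = B₀} = I at *
  generalize Nat.card ↥(Cfsg.isometryGroup F (Cfsg.quadFormPlus (k + s) F)) = O at *
  generalize Nat.card ↥(qFrames (Cfsg.quadFormPlus (k + s) F) (fun _ : κ => (0 : F))) = Fr at *
  generalize (orthSet (qfam k (rEmpty : (Empty → F) → F))).card = Ok at *
  generalize Fintype.card F ^ (∑ i ∈ Finset.range s, i) = qA at *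
  generalize Fintype.card F ^ (∑ i ∈ Finset.range s, 2 * (k + i)) = qB at *
  have hFr : 0 < Fr := by
    apply Nat.pos_of_ne_zero
    intro h0
    rw [h0, mul_zero] at hmaster
    exact absurd hmaster.symm (Nat.mul_ne_zero (by omega) (by omega))
  apply Nat.eq_of_mul_eq_mul_right hFr
  calc C * qA * Fr = (C * Fr) * qA := by ring
    _ = I * O * qA := by rw [hmaster]
    _ = I * (O * qA) := by ring
    _ = I * (qB * Ok * Fr) := by rw [hchain]
    _ = I * qB * Ok * Fr := by ring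

/-- Centraliser in `O⁺`, commutator space with exactly one non-singular frame vector. -/
theorem cent_one (h2 : (2 : F) = 0) (k r : ℕ) (hk : 1 ≤ k)
    (x : ↥(Cfsg.isometryGroup F (Cfsg.quadFormPlus (k + r) F)))
    (hT2 : ((x : GL (Fin (k + r) ⊕ Fin (k + r)) F) : Matrix (Fin (k + r) ⊕ Fin (k + r)) (Fin (k + r) ⊕ Fin (k + r)) F) * ((x : GL (Fin (k + r) ⊕ Fin (k + r)) F) : Matrix (Fin (k + r) ⊕ Fin (k + r)) (Fin (k + r) ⊕ Fin (k + r)) F) = 1)
    {κ : Type} [Fintype κ] [DecidableEq κ] (B₀ : Matrix κ κ F)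
    (hB₀S : ∀ x y, Matrix.toBilin' B₀ x y = Matrix.toBilin' B₀ y x)
    (hB₀N : (Matrix.toBilin' B₀).Nondegenerate)
    (hcard : Fintype.card κ = (((x : GL (Fin (k + r) ⊕ Fin (k + r)) F) : Matrix (Fin (k + r) ⊕ Fin (k + r)) (Fin (k + r) ⊕ Fin (k + r)) F) - 1).rank) (hrank : (((x : GL (Fin (k + r) ⊕ Fin (k + r)) F) : Matrix (Fin (k + r) ⊕ Fin (k + r)) (Fin (k + r) ⊕ Fin (k + r)) F) - 1).rank = r + 1)
    (htype : (∀ x, Matrix.toBilin' B₀ x x = 0) ↔
      (∀ v, Cfsg.quadFormPlus (k + r) F (v + ((x : GL (Fin (k + r) ⊕ Fin (k + r)) F) : Matrix (Fin (k + r) ⊕ Fin (k + r)) (Fin (k + r) ⊕ Fin (k + r)) F) *ᵥ v) = 0))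
    (j₀ : κ) (hdiag : ∀ i, B₀ i i = if i = j₀ then 1 else 0) :
    Nat.card ↥(Subgroup.centralizer
        ({x} : Set ↥(Cfsg.isometryGroup F (Cfsg.quadFormPlus (k + r) F)))) *
        Fintype.card F ^ (k + ∑ i ∈ Finset.range r, (1 + i)) =
      2 * Nat.card {c : Matrix κ κ F // cᵀ * B₀ * c = B₀} *
        Fintype.card F ^ (1 + (∑ i ∈ Finset.range r, 2 * (k + i)) + k * (k - 1)) *
        ∏ i ∈ Finset.range (k - 1), (Fintype.card F ^ (2 * (i + 1)) - 1) := by
  classical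
  obtain ⟨k', rfl⟩ : ∃ k', k = k' + 1 := ⟨k - 1, by omega⟩
  have hq : 1 < Fintype.card F := Fintype.one_lt_card
  have hmaster := card_centralizer_mul_orth h2 _ (plusQF (k' + 1 + r) F)
    (plusQF_coe (k' + 1 + r) F) (plusQF_nondegenerate (k' + 1 + r) F) x hT2 B₀ hB₀S hB₀N hcard
    htype
  have hd : (fun i => B₀ i i) = fun i : κ => if i = j₀ then (1 : F) else 0 := funext hdiag
  rw [hd] at hmaster
  have hchain := plus_chain_one (F := F) h2 (k' + 1) r (κ := κ) (by rw [hcard, hrank]) j₀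
  have hN := card_plus_one (F := F) h2 (k' + 1)
  have hOk := card_orthSet_plus (F := F) k'
  have hI := card_model_pos B₀
  have hO : 0 < Nat.card ↥(Cfsg.isometryGroup F (Cfsg.quadFormPlus (k' + 1 + r) F)) :=
    Nat.card_pos
  have hD : 0 < Fintype.card F ^ (k' + 1) - 1 := by
    have : 1 < Fintype.card F ^ (k' + 1) := Nat.one_lt_pow (by omega) hq
    omega
  have e1 : k' + 1 - 1 = k' := by omega
  rw [e1, pow_add (Fintype.card F) (k' + 1) (∑ i ∈ Finset.range r, (1 + i)),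
    pow_add (Fintype.card F) (1 + ∑ i ∈ Finset.range r, 2 * (k' + 1 + i)) ((k' + 1) * k'),
    pow_add (Fintype.card F) 1 (∑ i ∈ Finset.range r, 2 * (k' + 1 + i)), pow_one]
  generalize Nat.card ↥(Subgroup.centralizer
    ({x} : Set ↥(Cfsg.isometryGroup F (Cfsg.quadFormPlus (k' + 1 + r) F)))) = C at *
  generalize Nat.card {c : Matrix κ κ F // cᵀ * B₀ * c = B₀} = I at *
  generalize Nat.card ↥(Cfsg.isometryGroup F (Cfsg.quadFormPlus (k' + 1 + r) F)) = O at *
  generalize Nat.card ↥(qFrames (Cfsg.quadFormPlus (k' + 1 + r) F)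
    (fun i : κ => if i = j₀ then (1 : F) else 0)) = Fr at *
  generalize (orthSet (qfam (k' + 1) (rEmpty : (Empty → F) → F))).card = Ok at *
  generalize Nat.card {v : (Fin (k' + 1) ⊕ Fin (k' + 1)) ⊕ Empty → F //
    qfam (k' + 1) (rEmpty : (Empty → F) → F) v = 1} = N at *
  generalize Fintype.card F ^ (∑ i ∈ Finset.range r, (1 + i)) = qA at *
  generalize Fintype.card F ^ (∑ i ∈ Finset.range r, 2 * (k' + 1 + i)) = qB at *
  generalize ∏ i ∈ Finset.range k', (Fintype.card F ^ (2 * (i + 1)) - 1) = P at *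
  generalize Fintype.card F ^ ((k' + 1) * k') = qkk at *
  generalize Fintype.card F ^ (k' + 1) = qk at *
  generalize Fintype.card F = q at *
  have hFr : 0 < Fr := by
    apply Nat.pos_of_ne_zero
    intro h0
    rw [h0, mul_zero] at hmaster
    exact absurd hmaster.symm (Nat.mul_ne_zero (by omega) (by omega))
  apply Nat.eq_of_mul_eq_mul_right (Nat.mul_pos hFr hD)
  calc C * (qk * qA) * (Fr * (qk - 1)) = (C * Fr) * qA * (qk * (qk - 1)) := by ring
    _ = I * O * qA * (q * N) := by rw [hmaster, hN]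
    _ = I * q * (O * N * qA) := by ring
    _ = I * q * (qB * Ok * Fr) := by rw [hchain]
    _ = I * q * (qB * (2 * qkk * (qk - 1) * P) * Fr) := by rw [hOk]
    _ = 2 * I * (q * qB * qkk) * P * (Fr * (qk - 1)) := by ring

end core

section arith

theorem gauss (r : ℕ) : 2 * (∑ i ∈ Finset.range r, i) + r = r * r := by
  have h := Finset.sum_range_id_mul_two r
  cases r with
  | zero => simp
  | succ n =>
    rw [Nat.add_sub_cancel] at h
    nlinarith

theorem sum_one_add (r : ℕ) :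
    ∑ i ∈ Finset.range r, (1 + i) = r + ∑ i ∈ Finset.range r, i := by
  rw [Finset.sum_add_distrib, Finset.sum_const, Finset.card_range, smul_eq_mul, mul_one]

theorem sum_two_mul (k r : ℕ) :
    ∑ i ∈ Finset.range r, 2 * (k + i) = 2 * (k * r) + 2 * ∑ i ∈ Finset.range r, i := by
  rw [← Finset.mul_sum, Finset.sum_add_distrib, Finset.sum_const, Finset.card_range,
    smul_eq_mul]
  ring

theorem exp_id_b (k r : ℕ) (hk : 1 ≤ k) :
    (∑ i ∈ Finset.range r, (1 + i)) +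
        (2 * (k + r) * (r + 1 - 1) - (3 * (r + 1) ^ 2 - 3 * (r + 1)) / 2) =
      ∑ i ∈ Finset.range r, 2 * (k + i) := by
  have hG := gauss r
  rw [sum_one_add, sum_two_mul]
  have hX : r ≤ k * r := Nat.le_mul_of_pos_left r (by omega)
  have e1 : (r + 1) ^ 2 = r * r + 2 * r + 1 := by ring
  have e2 : 2 * (k + r) * (r + 1 - 1) = 2 * (k * r) + 2 * (r * r) := by
    rw [Nat.add_sub_cancel]
    ring
  rw [e1, e2]
  generalize ∑ i ∈ Finset.range r, i = G at *
  generalize k * r = X at *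
  generalize r * r = R at *
  omega

theorem exp_id_c (k r : ℕ) (hr : 1 ≤ r) :
    (∑ i ∈ Finset.range r, (1 + i)) +
        (2 * (k + r) * (r + 1 - 1) - (3 * (r + 1) ^ 2 - 5 * (r + 1)) / 2 - 1) =
      (∑ i ∈ Finset.range r, 2 * (k + i)) + r := by
  have hG := gauss r
  rw [sum_one_add, sum_two_mul]
  have e1 : (r + 1) ^ 2 = r * r + 2 * r + 1 := by ring
  have e2 : 2 * (k + r) * (r + 1 - 1) = 2 * (k * r) + 2 * (r * r) := by
    rw [Nat.add_sub_cancel]
    ring
  rw [e1, e2]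
  generalize ∑ i ∈ Finset.range r, i = G at *
  generalize k * r = X at *
  generalize r * r = R at *
  omega

theorem exp_id_a (k s : ℕ) :
    (∑ i ∈ Finset.range s, i) + (2 * (k + s) * s - (3 * s ^ 2 + s) / 2) =
      ∑ i ∈ Finset.range s, 2 * (k + i) := by
  have hG := gauss s
  rw [sum_two_mul]
  have e1 : s ^ 2 = s * s := by ring
  have e2 : 2 * (k + s) * s = 2 * (k * s) + 2 * (s * s) := by ring
  rw [e1, e2]
  generalize ∑ i ∈ Finset.range s, i = G at *
  generalize k * s = X at *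
  generalize s * s = R at *
  omega

theorem sq_pred_add (k : ℕ) (hk : 1 ≤ k) : (k - 1) ^ 2 + k = 1 + k * (k - 1) := by
  obtain ⟨k', rfl⟩ : ∃ k', k = k' + 1 := ⟨k - 1, by omega⟩
  rw [Nat.add_sub_cancel]
  ring

end arith

section final

variable {F : Type*} [Field F] [Fintype F]

theorem coe_sq_eq_one {m : ℕ} (x : ↥(Cfsg.isometryGroup F (Cfsg.quadFormPlus m F)))
    (hx : x ^ 2 = 1) : ((x : GL (Fin m ⊕ Fin m) F) : Matrix (Fin m ⊕ Fin m) (Fin m ⊕ Fin m) F) * ((x : GL (Fin m ⊕ Fin m) F) : Matrix (Fin m ⊕ Fin m) (Fin m ⊕ Fin m) F) = 1 := by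
  have := congrArg (fun z : ↥(Cfsg.isometryGroup F (Cfsg.quadFormPlus m F)) =>
    ((z : GL (Fin m ⊕ Fin m) F) : Matrix (Fin m ⊕ Fin m) (Fin m ⊕ Fin m) F)) hx
  simpa [pow_two] using this

theorem sub_one_mulVec_char2 {ι : Type} [Fintype ι] [DecidableEq ι] (h2 : (2 : F) = 0)
    (T : Matrix ι ι F) (v : ι → F) : (T - 1) *ᵥ v = v + T *ᵥ v := by
  rw [Matrix.sub_mulVec, Matrix.one_mulVec]
  funext i
  simp only [Pi.add_apply, Pi.sub_apply]
  linear_combination (-(v i)) * h2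

theorem rank_le_of_sq {m : ℕ} (h2 : (2 : F) = 0)
    (x : ↥(Cfsg.isometryGroup F (Cfsg.quadFormPlus m F))) (hT2 : ((x : GL (Fin m ⊕ Fin m) F) : Matrix (Fin m ⊕ Fin m) (Fin m ⊕ Fin m) F) * ((x : GL (Fin m ⊕ Fin m) F) : Matrix (Fin m ⊕ Fin m) (Fin m ⊕ Fin m) F) = 1) :
    (((x : GL (Fin m ⊕ Fin m) F) : Matrix (Fin m ⊕ Fin m) (Fin m ⊕ Fin m) F) - 1).rank ≤ m := by
  have := OrthInvClass.two_mul_rank_le h2 _ hT2
  rw [Fintype.card_sum, Fintype.card_fin] at this
  omega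

theorem card_hyp {m : ℕ} (h : Fintype.card F ≠ 2 ∨ m ≠ 2) :
    Fintype.card F ≠ 2 ∨ Fintype.card (Fin m ⊕ Fin m) ≠ 4 := by
  rcases h with h | h
  · exact Or.inl h
  · right
    rw [Fintype.card_sum, Fintype.card_fin]
    omega

/-- Centraliser order in `Ω⁺`, type `b_s`. -/
theorem card_cent_omega_odd (h2 : (2 : F) = 0) {m s : ℕ} (h : Fintype.card F ≠ 2 ∨ m ≠ 2)
    (x : ↥(Cfsg.isometryGroup F (Cfsg.quadFormPlus m F))) (hx : x ^ 2 = 1)
    (hs : (((x : GL (Fin m ⊕ Fin m) F) : Matrix (Fin m ⊕ Fin m) (Fin m ⊕ Fin m) F) - 1).rank = s) (hodd : Odd s) :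
    Nat.card {g : ↥(Cfsg.Omega F (Cfsg.quadFormPlus m F)) //
        (g : ↥(Cfsg.isometryGroup F (Cfsg.quadFormPlus m F))) * x =
          x * (g : ↥(Cfsg.isometryGroup F (Cfsg.quadFormPlus m F)))} =
      Fintype.card F ^ (2 * m * (s - 1) - (3 * s ^ 2 - 3 * s) / 2) *
        (Fintype.card F ^ (((s - 1) / 2) ^ 2) *
          ∏ i ∈ Finset.range ((s - 1) / 2), (Fintype.card F ^ (2 * (i + 1)) - 1)) *
        (Fintype.card F ^ ((m - s) ^ 2) *
          ∏ i ∈ Finset.range (m - s), (Fintype.card F ^ (2 * (i + 1)) - 1)) := by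
  classical
  have hq : 1 < Fintype.card F := Fintype.one_lt_card
  have hT2 := coe_sq_eq_one x hx
  have hsm := rank_le_of_sq h2 x hT2
  rw [hs] at hsm
  obtain ⟨n, hn⟩ := hodd
  obtain ⟨k, hk⟩ : ∃ k, m = k + 2 * n := ⟨m - 2 * n, by omega⟩
  have hk1 : 1 ≤ k := by omega
  have hna : ¬ ∀ v, Cfsg.quadFormPlus m F (v + ((x : GL (Fin m ⊕ Fin m) F) : Matrix (Fin m ⊕ Fin m) (Fin m ⊕ Fin m) F) *ᵥ v) = 0 := by
    intro hall
    obtain ⟨j, hj⟩ := OrthInvClass.even_rank_of_alt_type h2 (plusQF m F)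
      (plusQF_nondegenerate m F) ((x : GL (Fin m ⊕ Fin m) F) : Matrix (Fin m ⊕ Fin m) (Fin m ⊕ Fin m) F) (fun v => by rw [plusQF_coe]; exact x.2 v v) hT2
      (fun v => by rw [plusQF_coe]; exact hall v)
    omega
  have hxΩ : x ∉ Cfsg.Omega F (Cfsg.quadFormPlus m F) := by
    rw [OmegaClass.plus_mem_omega_iff m F h2 h x, hs, Nat.even_iff]
    omega
  have hC := card_comm_two (Cfsg.Omega F (Cfsg.quadFormPlus m F)) x x
    (OmegaClass.plus_mul_mem m F h2 h) hxΩ rfl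
  have hE := exp_id_b k (2 * n) hk1
  subst hk
  subst hn
  have hcent := cent_one h2 k (2 * n) hk1 x hT2 (SpInvCent.oddModel n (F := F))
    (SpInvCent.oddModel_symm n h2) (SpInvCent.oddModel_nondegenerate n h2)
    (by rw [hs, Fintype.card_sum, Fintype.card_sum, Fintype.card_fin, Fintype.card_unit]; omega)
    hs ⟨fun h => absurd h (SpInvCent.oddModel_not_alt n), fun h => absurd h hna⟩ (Sum.inr ())
    (by
      intro i
      rcases i with (i | i) | ⟨⟩ <;> simp [SpInvCent.oddModel, Matrix.J])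
  rw [SpInvCent.card_oddModel n h2, Cfsg.Agent.S0245.result rfl n, hC] at hcent
  have e1 : (2 * n + 1 - 1) / 2 = n := by omega
  have e2 : k + 2 * n - (2 * n + 1) = k - 1 := by omega
  rw [e1, e2]
  have hkk := sq_pred_add k hk1
  have key : Fintype.card F ^ (2 * (k + 2 * n) * (2 * n + 1 - 1) -
      (3 * (2 * n + 1) ^ 2 - 3 * (2 * n + 1)) / 2) * Fintype.card F ^ ((k - 1) ^ 2) *
      Fintype.card F ^ (k + ∑ i ∈ Finset.range (2 * n), (1 + i)) =
      Fintype.card F ^ (1 + (∑ i ∈ Finset.range (2 * n), 2 * (k + i)) + k * (k - 1)) := by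
    rw [← pow_add, ← pow_add]
    congr 1
    generalize 2 * (k + 2 * n) * (2 * n + 1 - 1) -
      (3 * (2 * n + 1) ^ 2 - 3 * (2 * n + 1)) / 2 = E at *
    generalize ∑ i ∈ Finset.range (2 * n), (1 + i) = A at *
    generalize ∑ i ∈ Finset.range (2 * n), 2 * (k + i) = B at *
    generalize (k - 1) ^ 2 = K1 at *
    generalize k * (k - 1) = K2 at *
    omega
  have hpos : 0 < Fintype.card F ^ (k + ∑ i ∈ Finset.range (2 * n), (1 + i)) :=
    Nat.pow_pos (by omega)
  apply Nat.eq_of_mul_eq_mul_right hpos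
  apply Nat.eq_of_mul_eq_mul_left (by norm_num : 0 < 2)
  generalize Nat.card {g : ↥(Cfsg.Omega F (Cfsg.quadFormPlus (k + 2 * n) F)) //
    (g : ↥(Cfsg.isometryGroup F (Cfsg.quadFormPlus (k + 2 * n) F))) * x =
      x * (g : ↥(Cfsg.isometryGroup F (Cfsg.quadFormPlus (k + 2 * n) F)))} = CΩ at *
  generalize Fintype.card F ^ (2 * (k + 2 * n) * (2 * n + 1 - 1) -
      (3 * (2 * n + 1) ^ 2 - 3 * (2 * n + 1)) / 2) = qE at *
  generalize Fintype.card F ^ (k + ∑ i ∈ Finset.range (2 * n), (1 + i)) = qA at *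
  generalize Fintype.card F ^ (1 + (∑ i ∈ Finset.range (2 * n), 2 * (k + i)) + k * (k - 1)) =
    qB at *
  generalize Fintype.card F ^ ((k - 1) ^ 2) = qK at *
  generalize Fintype.card F ^ (n ^ 2) = qN at *
  generalize ∏ i ∈ Finset.range n, (Fintype.card F ^ (2 * (i + 1)) - 1) = Pn at *
  generalize ∏ i ∈ Finset.range (k - 1), (Fintype.card F ^ (2 * (i + 1)) - 1) = Pk at *
  calc 2 * (CΩ * qA) = 2 * CΩ * qA := by ring
    _ = 2 * (qN * Pn) * qB * Pk := hcent
    _ = 2 * (qN * Pn) * (qE * qK * qA) * Pk := by rw [key]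
    _ = 2 * (qE * (qN * Pn) * (qK * Pk) * qA) := by ring

end final

section final2

variable {F : Type*} [Field F] [Fintype F]

theorem card_stab_vec (n' : ℕ) (u : Fin (n' + 1) ⊕ Fin (n' + 1) → F) (hu : u ≠ 0) :
    Nat.card {g : ↥(Matrix.symplecticGroup (Fin (n' + 1)) F) //
      (g : Matrix (Fin (n' + 1) ⊕ Fin (n' + 1)) (Fin (n' + 1) ⊕ Fin (n' + 1)) F) *ᵥ u = u} =
      Fintype.card F ^ ((n' + 1) ^ 2) *
        ∏ i ∈ Finset.range n', (Fintype.card F ^ (2 * (i + 1)) - 1) := by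
  have hq : 1 < Fintype.card F := Fintype.one_lt_card
  have hstab := Cfsg.Agent.S2594.card_stab (n' + 1) u hu
  rw [Cfsg.Agent.S0245.result rfl (n' + 1), Finset.prod_range_succ] at hstab
  have hpos : 0 < Fintype.card F ^ (n' + 1 + (n' + 1)) - 1 := by
    have : 1 < Fintype.card F ^ (n' + 1 + (n' + 1)) := Nat.one_lt_pow (by omega) hq
    omega
  have e2 : 2 * (n' + 1) = n' + 1 + (n' + 1) := by ring
  rw [e2] at hstab
  apply Nat.eq_of_mul_eq_mul_left hpos
  rw [← hstab]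
  ring

theorem sympForm_single_left (n : ℕ) (a : Fin n) (x : Fin n ⊕ Fin n → F) :
    Cfsg.sympForm n F (Pi.single (Sum.inl a) 1) x = - x (Sum.inr a) := by
  rw [sympForm_eq]
  simp [Pi.single_apply, Finset.sum_ite_eq]

theorem evenModel_diag (n : ℕ) (a : Fin n) (i : Fin n ⊕ Fin n) :
    SpInvCent.evenModel n (Pi.single (Sum.inl a) (1 : F)) i i =
      if i = Sum.inr a then 1 else 0 := by
  unfold SpInvCent.evenModel
  rw [LinearMap.BilinForm.toMatrix'_apply, SpInvCent.evenForm_self, sympForm_single_left]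
  by_cases h : i = Sum.inr a
  · rw [if_pos h, h]
    simp
  · rw [if_neg h, Pi.single_apply, if_neg (Ne.symm h)]
    simp

/-- Centraliser order in `Ω⁺`, type `c_s`. -/
theorem card_cent_omega_even_na (h2 : (2 : F) = 0) {m s : ℕ}
    (h : Fintype.card F ≠ 2 ∨ m ≠ 2)
    (x : ↥(Cfsg.isometryGroup F (Cfsg.quadFormPlus m F))) (hx : x ^ 2 = 1)
    (hs : (((x : GL (Fin m ⊕ Fin m) F) : Matrix (Fin m ⊕ Fin m) (Fin m ⊕ Fin m) F) - 1).rank = s) (heven : Even s)
    (hna : ∃ v : Fin m ⊕ Fin m → F, Cfsg.quadFormPlus m F ((((x : GL (Fin m ⊕ Fin m) F) : Matrix (Fin m ⊕ Fin m) (Fin m ⊕ Fin m) F) - 1) *ᵥ v) ≠ 0) :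
    Nat.card {g : ↥(Cfsg.Omega F (Cfsg.quadFormPlus m F)) //
        (g : ↥(Cfsg.isometryGroup F (Cfsg.quadFormPlus m F))) * x =
          x * (g : ↥(Cfsg.isometryGroup F (Cfsg.quadFormPlus m F)))} =
      Fintype.card F ^ (2 * m * (s - 1) - (3 * s ^ 2 - 5 * s) / 2 - 1) *
        (Fintype.card F ^ (((s - 2) / 2) ^ 2) *
          ∏ i ∈ Finset.range ((s - 2) / 2), (Fintype.card F ^ (2 * (i + 1)) - 1)) *
        (Fintype.card F ^ ((m - s) ^ 2) *
          ∏ i ∈ Finset.range (m - s), (Fintype.card F ^ (2 * (i + 1)) - 1)) := by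
  classical
  have hq : 1 < Fintype.card F := Fintype.one_lt_card
  have hT2 := coe_sq_eq_one x hx
  have hsm := rank_le_of_sq h2 x hT2
  rw [hs] at hsm
  have hna' : ¬ ∀ v, Cfsg.quadFormPlus m F (v + ((x : GL (Fin m ⊕ Fin m) F) : Matrix (Fin m ⊕ Fin m) (Fin m ⊕ Fin m) F) *ᵥ v) = 0 := by
    intro hall
    obtain ⟨v, hv⟩ := hna
    apply hv
    rw [sub_one_mulVec_char2 h2]
    exact hall v
  have hT1 : ((x : GL (Fin m ⊕ Fin m) F) : Matrix (Fin m ⊕ Fin m) (Fin m ⊕ Fin m) F) ≠ 1 := by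
    intro h1
    obtain ⟨v, hv⟩ := hna
    rw [h1, sub_self, Matrix.zero_mulVec] at hv
    exact hv (by simp [Cfsg.quadFormPlus])
  have hs1 := OrthInvClass.rank_sub_one_pos _ hT1
  rw [hs] at hs1
  obtain ⟨n, hn⟩ := heven
  obtain ⟨n', rfl⟩ : ∃ n', n = n' + 1 := ⟨n - 1, by omega⟩
  have hs2 : s = 2 * n' + 1 + 1 := by omega
  obtain ⟨k, hk⟩ : ∃ k, m = k + (2 * n' + 1) := ⟨m - (2 * n' + 1), by omega⟩
  have hk1 : 1 ≤ k := by omega
  obtain ⟨r₀, hr₀, hr₀x⟩ := exists_comm_notMem h2 _ (plusQF m F) (plusQF_coe m F)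
    (plusQF_nondegenerate m F) (card_hyp h) x
    (OmegaConj.plus_exists_fixed m F h2 ((x : GL (Fin m ⊕ Fin m) F) : Matrix (Fin m ⊕ Fin m) (Fin m ⊕ Fin m) F) hT2 (fun hh => hna' hh.2))
  have hC := card_comm_two (Cfsg.Omega F (Cfsg.quadFormPlus m F)) x r₀
    (OmegaClass.plus_mul_mem m F h2 h) hr₀ hr₀x
  have hE := exp_id_c k (2 * n' + 1) (by omega)
  subst hk
  subst hs2
  obtain ⟨u, hudef⟩ : ∃ u : Fin (n' + 1) ⊕ Fin (n' + 1) → F,
      u = Pi.single (Sum.inl 0) (1 : F) := ⟨_, rfl⟩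
  have hu : u ≠ 0 := by
    intro h0
    have := congrFun h0 (Sum.inl 0)
    rw [hudef] at this
    simp at this
  have hcent := cent_one h2 k (2 * n' + 1) hk1 x hT2 (SpInvCent.evenModel (n' + 1) u)
    (by
      intro a b
      rw [SpInvCent.toBilin'_evenModel]
      exact SpInvCent.evenForm_symm (n' + 1) h2 u a b)
    (by
      rw [SpInvCent.toBilin'_evenModel]
      exact SpInvCent.evenForm_nondegenerate (n' + 1) h2 u)
    (by rw [hs, Fintype.card_sum, Fintype.card_fin]; omega)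
    hs
    ⟨fun h => absurd (by rw [SpInvCent.toBilin'_evenModel] at h; exact h)
        (SpInvCent.evenForm_not_alt (n' + 1) u hu), fun h => absurd h hna'⟩
    (Sum.inr 0)
    (by
      intro i
      rw [hudef]
      exact evenModel_diag (n' + 1) 0 i)
  rw [SpInvCent.card_evenModel (n' + 1) h2 u, card_stab_vec n' u hu, hC] at hcent
  have e1 : (2 * n' + 1 + 1 - 2) / 2 = n' := by omega
  have e2 : k + (2 * n' + 1) - (2 * n' + 1 + 1) = k - 1 := by omega
  rw [e1, e2]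
  have hkk := sq_pred_add k hk1
  have hnn : (n' + 1) ^ 2 = n' ^ 2 + (2 * n' + 1) := by ring
  have key : Fintype.card F ^ (2 * (k + (2 * n' + 1)) * (2 * n' + 1 + 1 - 1) -
      (3 * (2 * n' + 1 + 1) ^ 2 - 5 * (2 * n' + 1 + 1)) / 2 - 1) * Fintype.card F ^ (n' ^ 2) *
      Fintype.card F ^ ((k - 1) ^ 2) *
      Fintype.card F ^ (k + ∑ i ∈ Finset.range (2 * n' + 1), (1 + i)) =
      Fintype.card F ^ ((n' + 1) ^ 2) *
      Fintype.card F ^ (1 + (∑ i ∈ Finset.range (2 * n' + 1), 2 * (k + i)) + k * (k - 1)) := by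
    rw [← pow_add, ← pow_add, ← pow_add, ← pow_add]
    congr 1
    generalize 2 * (k + (2 * n' + 1)) * (2 * n' + 1 + 1 - 1) -
      (3 * (2 * n' + 1 + 1) ^ 2 - 5 * (2 * n' + 1 + 1)) / 2 - 1 = E at *
    generalize ∑ i ∈ Finset.range (2 * n' + 1), (1 + i) = A at *
    generalize ∑ i ∈ Finset.range (2 * n' + 1), 2 * (k + i) = B at *
    generalize (k - 1) ^ 2 = K1 at *
    generalize k * (k - 1) = K2 at *
    generalize (n' + 1) ^ 2 = N1 at *
    generalize n' ^ 2 = N0 at *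
    omega
  have hpos : 0 < Fintype.card F ^ (k + ∑ i ∈ Finset.range (2 * n' + 1), (1 + i)) :=
    Nat.pow_pos (by omega)
  apply Nat.eq_of_mul_eq_mul_right hpos
  apply Nat.eq_of_mul_eq_mul_left (by norm_num : 0 < 2)
  generalize Nat.card {g : ↥(Cfsg.Omega F (Cfsg.quadFormPlus (k + (2 * n' + 1)) F)) //
    (g : ↥(Cfsg.isometryGroup F (Cfsg.quadFormPlus (k + (2 * n' + 1)) F))) * x =
      x * (g : ↥(Cfsg.isometryGroup F (Cfsg.quadFormPlus (k + (2 * n' + 1)) F)))} = CΩ at *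
  generalize Fintype.card F ^ (2 * (k + (2 * n' + 1)) * (2 * n' + 1 + 1 - 1) -
      (3 * (2 * n' + 1 + 1) ^ 2 - 5 * (2 * n' + 1 + 1)) / 2 - 1) = qE at *
  generalize Fintype.card F ^ (k + ∑ i ∈ Finset.range (2 * n' + 1), (1 + i)) = qA at *
  generalize Fintype.card F ^
    (1 + (∑ i ∈ Finset.range (2 * n' + 1), 2 * (k + i)) + k * (k - 1)) = qB at *
  generalize Fintype.card F ^ ((k - 1) ^ 2) = qK at *
  generalize Fintype.card F ^ ((n' + 1) ^ 2) = qN1 at *
  generalize Fintype.card F ^ (n' ^ 2) = qN at *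
  generalize ∏ i ∈ Finset.range n', (Fintype.card F ^ (2 * (i + 1)) - 1) = Pn at *
  generalize ∏ i ∈ Finset.range (k - 1), (Fintype.card F ^ (2 * (i + 1)) - 1) = Pk at *
  calc 2 * (CΩ * qA) = 2 * CΩ * qA := by ring
    _ = 2 * (qN1 * Pn) * qB * Pk := hcent
    _ = 2 * Pn * Pk * (qN1 * qB) := by ring
    _ = 2 * Pn * Pk * (qE * qN * qK * qA) := by rw [key]
    _ = 2 * (qE * (qN * Pn) * (qK * Pk) * qA) := by ring

end final2

section final3

variable {F : Type*} [Field F] [Fintype F]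

/-- Centraliser order in `Ω⁺`, type `a_s`. -/
theorem card_cent_omega_alt (h2 : (2 : F) = 0) {m s : ℕ}
    (h : Fintype.card F ≠ 2 ∨ m ≠ 2)
    (x : ↥(Cfsg.isometryGroup F (Cfsg.quadFormPlus m F))) (hx : x ^ 2 = 1)
    (hs : (((x : GL (Fin m ⊕ Fin m) F) : Matrix (Fin m ⊕ Fin m) (Fin m ⊕ Fin m) F) - 1).rank = s) (heven : Even s)
    (halt : ∀ v : Fin m ⊕ Fin m → F, Cfsg.quadFormPlus m F ((((x : GL (Fin m ⊕ Fin m) F) : Matrix (Fin m ⊕ Fin m) (Fin m ⊕ Fin m) F) - 1) *ᵥ v) = 0) :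
    Nat.card {g : ↥(Cfsg.Omega F (Cfsg.quadFormPlus m F)) //
        (g : ↥(Cfsg.isometryGroup F (Cfsg.quadFormPlus m F))) * x =
          x * (g : ↥(Cfsg.isometryGroup F (Cfsg.quadFormPlus m F)))} =
      Fintype.card F ^ (2 * m * s - (3 * s ^ 2 + s) / 2) *
        (Fintype.card F ^ ((s / 2) ^ 2) *
          ∏ i ∈ Finset.range (s / 2), (Fintype.card F ^ (2 * (i + 1)) - 1)) *
        (if s = m then 1 else Fintype.card F ^ ((m - s) * (m - s - 1)) *
          (Fintype.card F ^ (m - s) - 1) *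
          ∏ i ∈ Finset.range (m - s - 1), (Fintype.card F ^ (2 * (i + 1)) - 1)) := by
  classical
  have hq : 1 < Fintype.card F := Fintype.one_lt_card
  have hT2 := coe_sq_eq_one x hx
  have hsm := rank_le_of_sq h2 x hT2
  rw [hs] at hsm
  have halt' : ∀ v, Cfsg.quadFormPlus m F (v + ((x : GL (Fin m ⊕ Fin m) F) : Matrix (Fin m ⊕ Fin m) (Fin m ⊕ Fin m) F) *ᵥ v) = 0 := by
    intro v
    rw [← sub_one_mulVec_char2 h2]
    exact halt v
  obtain ⟨n, hn⟩ := heven
  obtain ⟨k, hk⟩ : ∃ k, m = k + s := ⟨m - s, by omega⟩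
  have hE := exp_id_a k s
  subst hk
  have hcent := cent_zero h2 k s x hT2 (Matrix.J (Fin n) F)
    (fun a b => SpInvCent.sympBilin_symm_char2 n h2 a b) sympBilin_nondegenerate
    (by rw [hs, Fintype.card_sum, Fintype.card_fin]; omega) hs
    ⟨fun _ => halt', fun _ a => sympBilin_isAlt a⟩
    (by
      intro i
      rcases i with i | i <;> simp [Matrix.J])
  rw [SpInvCent.card_altModel n, Cfsg.Agent.S0245.result rfl n] at hcent
  have e1 : s / 2 = n := by omega
  rw [e1]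
  have key : Fintype.card F ^ (2 * (k + s) * s - (3 * s ^ 2 + s) / 2) *
      Fintype.card F ^ (∑ i ∈ Finset.range s, i) =
      Fintype.card F ^ (∑ i ∈ Finset.range s, 2 * (k + i)) := by
    rw [← pow_add]
    congr 1
    omega
  have hpos : 0 < Fintype.card F ^ (∑ i ∈ Finset.range s, i) := Nat.pow_pos (by omega)
  by_cases hk0 : k = 0
  · subst hk0
    rw [if_pos (by omega)]
    have hO1 : (orthSet (qfam 0 (rEmpty : (Empty → F) → F))).card = 1 := by
      rw [card_orthSet_qfam_zero, card_orthSet_rEmpty]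
    rw [hO1, mul_one] at hcent
    have hC := card_comm_of_le (Cfsg.Omega F (Cfsg.quadFormPlus (0 + s) F)) x (by
      intro g hg
      have hc : g * x * g⁻¹ = 1 * x * 1⁻¹ := by
        rw [hg]
        group
      exact (OmegaClass.plus_split (0 + s) F h2 h ⟨n, by omega⟩ x (by rw [hs]; omega) halt' g 1
        hc).mpr (one_mem _))
    rw [hC]
    apply Nat.eq_of_mul_eq_mul_right hpos
    rw [hcent, ← key]
    ring
  · obtain ⟨k', rfl⟩ : ∃ k', k = k' + 1 := ⟨k - 1, by omega⟩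
    rw [if_neg (by omega)]
    have e2 : k' + 1 + s - s = k' + 1 := by omega
    have e3 : k' + 1 - 1 = k' := by omega
    rw [e2, e3]
    have hO := card_orthSet_plus (F := F) k'
    rw [hO] at hcent
    obtain ⟨r₀, hr₀, hr₀x⟩ := exists_comm_notMem h2 _ (plusQF (k' + 1 + s) F)
      (plusQF_coe (k' + 1 + s) F) (plusQF_nondegenerate (k' + 1 + s) F) (card_hyp h) x
      (OmegaConj.plus_exists_fixed (k' + 1 + s) F h2 _ hT2 (fun hh => by
        have := hh.1
        rw [hs] at this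
        omega))
    have hC := card_comm_two (Cfsg.Omega F (Cfsg.quadFormPlus (k' + 1 + s) F)) x r₀
      (OmegaClass.plus_mul_mem (k' + 1 + s) F h2 h) hr₀ hr₀x
    rw [hC] at hcent
    apply Nat.eq_of_mul_eq_mul_right hpos
    apply Nat.eq_of_mul_eq_mul_left (by norm_num : 0 < 2)
    generalize Nat.card {g : ↥(Cfsg.Omega F (Cfsg.quadFormPlus (k' + 1 + s) F)) //
      (g : ↥(Cfsg.isometryGroup F (Cfsg.quadFormPlus (k' + 1 + s) F))) * x =
        x * (g : ↥(Cfsg.isometryGroup F (Cfsg.quadFormPlus (k' + 1 + s) F)))} = CΩ at *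
    generalize Fintype.card F ^ (2 * (k' + 1 + s) * s - (3 * s ^ 2 + s) / 2) = qE at *
    generalize Fintype.card F ^ (∑ i ∈ Finset.range s, i) = qA at *
    generalize Fintype.card F ^ (∑ i ∈ Finset.range s, 2 * (k' + 1 + i)) = qB at *
    generalize Fintype.card F ^ (n ^ 2) = qN at *
    generalize ∏ i ∈ Finset.range n, (Fintype.card F ^ (2 * (i + 1)) - 1) = Pn at *
    generalize ∏ i ∈ Finset.range k', (Fintype.card F ^ (2 * (i + 1)) - 1) = Pk at *
    generalize Fintype.card F ^ ((k' + 1) * k') = qK at *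
    generalize Fintype.card F ^ (k' + 1) - 1 = D at *
    calc 2 * (CΩ * qA) = 2 * CΩ * qA := by ring
      _ = qN * Pn * qB * (2 * qK * D * Pk) := hcent
      _ = qN * Pn * (qE * qA) * (2 * qK * D * Pk) := by rw [key]
      _ = 2 * (qE * (qN * Pn) * (qK * D * Pk) * qA) := by ring

end final3

end Cfsg.Agent.Lib.Helper8.OrthCentFinal
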